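import Cfsg.Agent.Lib.Helper99.SP4O.Defs

set_option autoImplicit false

namespace Cfsg.Agent.Lib.Helper99.SP4O

open Cfsg Cfsg.Geo
open Cfsg.Agent.Lib.Helper80.AS
open Cfsg.Agent.Lib.Helper77.Asch (NormBy MinOver)
open scoped MatrixGroups Matrix Kronecker

variable {ι : Type} [Fintype ι] [DecidableEq ι] {F : Type*} [Field F]

/-- C6N.  g a similarity, x an isometry ⇒ g x g⁻¹ an isometry. -/
theorem normBy_inf_iso (f : (ι → F) → (ι → F) → F) (Γ N : Subgroup (GL ι F)) (hΓ : Γ ≤ similarityGroup f)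
    (hn : NormBy Γ N) : NormBy Γ (N ⊓ multIso f) := by
  intro g hg x hx
  refine ⟨hn g hg x hx.1, ?_⟩
  obtain ⟨c, hc⟩ := hΓ hg
  have hx2 : ∀ u v, f ((x : Matrix ι ι F) *ᵥ u) ((x : Matrix ι ι F) *ᵥ v) = f u v := hx.2
  intro u v
  have h1 := hc (((g⁻¹ : GL ι F) : Matrix ι ι F) *ᵥ u) (((g⁻¹ : GL ι F) : Matrix ι ι F) *ᵥ v)
  rw [Matrix.mulVec_mulVec, Matrix.mulVec_mulVec, ← Units.val_mul, mul_inv_cancel, Units.val_one,
    Matrix.one_mulVec, Matrix.one_mulVec] at h1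
  rw [Units.val_mul, Units.val_mul, ← Matrix.mulVec_mulVec, ← Matrix.mulVec_mulVec,
    ← Matrix.mulVec_mulVec, ← Matrix.mulVec_mulVec, hc, hx2, ← h1]

end Cfsg.Agent.Lib.Helper99.SP4O
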