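import Cfsg.Agent.Lib.Helper99.SP4O.Defs

set_option autoImplicit false

namespace Cfsg.Agent.Lib.Helper99.SP4O

open Cfsg Cfsg.Geo
open Cfsg.Agent.Lib.Helper80.AS
open Cfsg.Agent.Lib.Helper77.Asch (NormBy MinOver)
open scoped MatrixGroups Matrix Kronecker commutatorElement

variable {ι : Type} [Fintype ι] [DecidableEq ι] {F : Type*} [Field F]

/-- a scalar isometry of a symplectic form is `± 1`. -/
theorem c6r_scalar_iso [Nonempty ι] (f : (ι → F) → (ι → F) → F) (hf : IsSymplecticForm f) (z : GL ι F)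
    (hz : z ∈ scalars ι F) (hi : z ∈ multIso f) : z = 1 ∨ z = -1 := by
  obtain ⟨c, hc⟩ := (mem_scalars_iff z).1 hz
  obtain ⟨i⟩ := ‹Nonempty ι›
  have hv : (Pi.single i (1 : F) : ι → F) ≠ 0 := by
    intro h
    have := congrFun h i
    simp at this
  obtain ⟨⟨x, hx⟩, -⟩ := hf.nondegenerate _ hv
  have h := hi x (Pi.single i (1 : F))
  rw [hc, Matrix.smul_mulVec, Matrix.smul_mulVec, Matrix.one_mulVec, Matrix.one_mulVec,
    hf.bilinear.smul_left, hf.bilinear.smul_right] at h
  have h1 : ((c : F) * c - 1) * f x (Pi.single i (1 : F)) = 0 := by linear_combination h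
  have h2 : (c : F) * c - 1 = 0 := (mul_eq_zero.1 h1).resolve_right hx
  have h3 : ((c : F) - 1) * ((c : F) + 1) = 0 := by linear_combination h2
  rcases mul_eq_zero.1 h3 with h4 | h4
  · left
    apply Units.ext
    rw [hc, sub_eq_zero.1 h4, one_smul, Units.val_one]
  · right
    apply Units.ext
    rw [hc, eq_neg_of_add_eq_zero_left h4, Units.val_neg, Units.val_one, neg_smul, one_smul]

theorem c6r_neg_mem_scalars : (-1 : GL ι F) ∈ scalars ι F := by
  rw [mem_scalars_iff]
  exact ⟨-1, by rw [Units.val_neg, Units.val_one, Units.val_neg, Units.val_one, neg_smul, one_smul]⟩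

theorem c6r_neg_mem_iso (f : (ι → F) → (ι → F) → F) (hf : IsSymplecticForm f) : (-1 : GL ι F) ∈ multIso f := by
  intro u v
  have h : ∀ w : ι → F, (((-1 : GL ι F) : Matrix ι ι F)) *ᵥ w = (-1 : F) • w := by
    intro w
    rw [Units.val_neg, Units.val_one, Matrix.neg_mulVec, Matrix.one_mulVec, neg_smul, one_smul]
  rw [h, h, hf.bilinear.smul_left, hf.bilinear.smul_right]
  ring

/-- C6R. -/
theorem ex5_of_class_two [Nonempty ι] (f : (ι → F) → (ι → F) → F) (hf : IsSymplecticForm f) (N : Subgroup (GL ι F))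
    (hZ : scalars ι F ≤ N) (habs : ActsAbsolutelyIrreducibly (matrixSet N)) (hab : ⁅N, N⁆ ≤ scalars ι F)
    (hsq : ∀ x ∈ N, x * x ∈ scalars ι F) (hiso : N ≤ multIso f ⊔ scalars ι F) : IsEx5 f (N ⊓ multIso f) := by
  have hsup : (N ⊓ multIso f) ⊔ scalars ι F = N := by
    apply le_antisymm (sup_le inf_le_left hZ)
    intro x hx
    have hx' := hiso hx
    rw [Subgroup.mem_sup_of_normal_right] at hx'
    obtain ⟨g, hg, z, hz, rfl⟩ := hx'
    have hgN : g ∈ N := by
      have := N.mul_mem hx (N.inv_mem (hZ hz))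
      rwa [mul_inv_cancel_right] at this
    exact Subgroup.mul_mem_sup ⟨hgN, hg⟩ hz
  refine ⟨?_, ?_, ?_, ?_, ?_⟩
  · rintro _ ⟨g, hg, rfl⟩ u v
    exact hg.2 u v
  · apply absIrr_of_sup
    rw [hsup]
    exact habs
  · exact ⟨hZ c6r_neg_mem_scalars, c6r_neg_mem_iso f hf⟩
  · intro x hx
    exact c6r_scalar_iso f hf _ (hsq x hx.1) ((multIso f).mul_mem hx.2 hx.2)
  · intro x hx y hy
    have h1 : ⁅x, y⁆ ∈ scalars ι F := hab (Subgroup.commutator_mem_commutator hx.1 hy.1)
    have h2 : ⁅x, y⁆ ∈ multIso f := by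
      rw [commutatorElement_def]
      exact (multIso f).mul_mem ((multIso f).mul_mem ((multIso f).mul_mem hx.2 hy.2)
        ((multIso f).inv_mem hx.2)) ((multIso f).inv_mem hy.2)
    rcases c6r_scalar_iso f hf _ h1 h2 with h | h
    · left
      exact commutatorElement_eq_one_iff_mul_comm.1 h
    · right
      rw [commutatorElement_def] at h
      have : x * y = (x * y * x⁻¹ * y⁻¹) * (y * x) := by group
      rw [this, h, neg_mul, one_mul]

end Cfsg.Agent.Lib.Helper99.SP4O
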