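import Cfsg.Agent.Lib.Helper99.SP4O.Defs
import Cfsg.Agent.Lib.Helper77.AschG.RGRP

set_option autoImplicit false

namespace Cfsg.Agent.Lib.Helper99.SP4O

open Cfsg Cfsg.Geo
open Cfsg.Agent.Lib.Helper80.AS
open Cfsg.Agent.Lib.Helper77.Asch (NormBy MinOver)
open scoped MatrixGroups Matrix Kronecker

variable {ι : Type} [Fintype ι] [DecidableEq ι] {F : Type*} [Field F]

theorem c6sq_central (z : GL ι F) (hz : z ∈ scalars ι F) (g : GL ι F) : g * z = z * g := by
  obtain ⟨c, hc⟩ := (mem_scalars_iff z).1 hz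
  apply Units.ext
  rw [Units.val_mul, Units.val_mul, hc, Matrix.mul_smul, Matrix.smul_mul, mul_one, one_mul]

/-- C6SQ. -/
theorem sq_mem_scalars [Fintype F] (hcard : Fintype.card ι = 4) (Γ N : Subgroup (GL ι F))
    (hmin : MinOver Γ (scalars ι F) N) (habs : ActsAbsolutelyIrreducibly (matrixSet N))
    (hab : ⁅N, N⁆ ≤ scalars ι F) : ∀ x ∈ N, x * x ∈ scalars ι F := by
  classical
  haveI : Nonempty ι := Fintype.card_pos_iff.1 (by omega)
  obtain ⟨r, hr, hexp⟩ := Cfsg.Agent.Lib.Helper77.AschG.exists_prime_exp Γ (scalars ι F) N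
    c6sq_central hmin hab
  have hq := card_quot_eq_sq N hmin.lt.le habs hab
  rw [hcard] at hq
  haveI : Fact (Nat.Prime 2) := ⟨Nat.prime_two⟩
  obtain ⟨q, hq2⟩ := exists_prime_orderOf_dvd_card' (G := N ⧸ (scalars ι F).subgroupOf N) 2
    (by rw [hq]; norm_num)
  obtain ⟨x, rfl⟩ := QuotientGroup.mk_surjective q
  have h1 : ((x : N ⧸ (scalars ι F).subgroupOf N)) ^ r = 1 := by
    rw [← QuotientGroup.mk_pow, QuotientGroup.eq_one_iff, Subgroup.mem_subgroupOf]
    simpa using hexp x x.2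
  have h2 : 2 ∣ r := by
    rw [← hq2]
    exact orderOf_dvd_of_pow_eq_one h1
  have h3 : 2 = r := (Nat.prime_dvd_prime_iff_eq Nat.prime_two hr).1 h2
  intro y hy
  have := hexp y hy
  rw [← h3, pow_two] at this
  exact this

end Cfsg.Agent.Lib.Helper99.SP4O
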