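import Cfsg.Agent.Lib.Helper80.AS.Final

/-! Ladder ASP4O (helper99): Aschbacher's theorem for Sp_4(q), q odd (S5787).  Definitions. -/

set_option autoImplicit false

namespace Cfsg.Agent.Lib.Helper99.SP4O

open Cfsg Cfsg.Geo
open Cfsg.Agent.Lib.Helper80.AS
open Cfsg.Agent.Lib.Helper77.Asch (NormBy MinOver)
open scoped MatrixGroups Matrix Kronecker

variable {ι : Type} [Fintype ι] [DecidableEq ι] {F : Type*} [Field F]

/-- `R` is an absolutely irreducible group of isometries of `f`, containing `-1`, in which squares and commutators are `± 1`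
(in dimension 4, `q` odd, this forces `R ≅ 2_-^{1+4}`). -/
structure IsEx5 (f : (ι → F) → (ι → F) → F) (R : Subgroup (GL ι F)) : Prop where
  fixes : FixesForm (matrixSet R) f
  abs : ActsAbsolutelyIrreducibly (matrixSet R)
  neg : (-1 : GL ι F) ∈ R
  sq : ∀ x ∈ R, x * x = 1 ∨ x * x = -1
  comm : ∀ x ∈ R, ∀ y ∈ R, x * y = y * x ∨ x * y = -(y * x)

/-- `H` lies in a member of one of the geometric classes of `Sp_4(q)`, `q` odd. -/
def InGeo4 [Fintype F] (f : (ι → F) → (ι → F) → F) (H : Subgroup (GL ι F)) : Prop :=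
  (∃ W : Submodule F (ι → F), W ≠ ⊥ ∧ IsTotallySingularFor f W ∧ H ≤ subspaceStabilizer W) ∨
  (∃ D : Fin 2 → Submodule F (ι → F), IsNondegenerateMDecomposition f 2 D ∧ H ≤ decompositionStabilizer D) ∨
  (5 ≤ Fintype.card F ∧ ∃ D : Fin 2 → Submodule F (ι → F), IsMDecomposition 2 D ∧
      (∀ i, IsTotallySingularFor f (D i)) ∧ H ≤ decompositionStabilizer D) ∨
  (∃ K : Subalgebra F (Matrix ι ι F), IsFieldSubalgebra 2 K ∧ IsSelfAdjointFor f K ∧
      (∀ k ∈ K, ∀ v : ι → F, f (k *ᵥ v) v = 0) ∧ H ≤ subalgebraNormalizer K) ∨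
  (5 ≤ Fintype.card F ∧ ∃ K : Subalgebra F (Matrix ι ι F), IsFieldSubalgebra 2 K ∧
      IsAdjointClosedFor f K ∧ ¬ IsSelfAdjointFor f K ∧ H ≤ subalgebraNormalizer K) ∨
  (∃ (F₀ : Subfield F) (r : ℕ) (P : GL ι F) (ζ : F), r.Prime ∧ Fintype.card F = Nat.card F₀ ^ r ∧ ζ ≠ 0 ∧
      IsFormRationalStructure f F₀ ζ P ∧ H ≤ subfieldSubgroup F₀ P) ∨
  (∃ (p : ℕ) (R : Subgroup (GL ι F)), IsEx5 f R ∧ p.Prime ∧ Fintype.card F = p ∧ IsSymplecticTypeGroup 2 R ∧
      ActsAbsolutelyIrreducibly (matrixSet R) ∧ R ≤ similarityGroup f ∧ Nat.card R = 32 ∧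
      Nat.card (Subgroup.center R) = 2 ∧ IsOfMinusType 2 R ∧ H ≤ subgroupNormalizer R)

end Cfsg.Agent.Lib.Helper99.SP4O
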