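import Cfsg.Agent.Lib.Helper99.SP4O.Defs

set_option autoImplicit false

namespace Cfsg.Agent.Lib.Helper99.SP4O

open Cfsg Cfsg.Geo
open Cfsg.Agent.Lib.Helper80.AS
open Cfsg.Agent.Lib.Helper77.Asch (NormBy MinOver)
open scoped MatrixGroups Matrix Kronecker commutatorElement

variable {ι : Type} [Fintype ι] [DecidableEq ι] {F : Type*} [Field F]

/-- a scalar isometry is `± 1` -/
theorem e5card_pm [Nonempty ι] (f : (ι → F) → (ι → F) → F)
    (hf : IsSymplecticForm f) (R : Subgroup (GL ι F)) (hR : FixesForm (matrixSet R) f)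
    (x : GL ι F) (hx : x ∈ R) (hs : x ∈ scalars ι F) : x = 1 ∨ x = -1 := by
  obtain ⟨c, hc⟩ := (mem_scalars_iff x).1 hs
  obtain ⟨i⟩ := ‹Nonempty ι›
  have hv : (Pi.single i 1 : ι → F) ≠ 0 := by
    intro h
    have := congrFun h i
    simp at this
  obtain ⟨⟨u, hu⟩, -⟩ := hf.nondegenerate _ hv
  have h := hR (x : Matrix ι ι F) ⟨x, hx, rfl⟩ u (Pi.single i 1)
  rw [hc, Matrix.smul_mulVec, Matrix.smul_mulVec, Matrix.one_mulVec, Matrix.one_mulVec,
    hf.bilinear.smul_left, hf.bilinear.smul_right] at h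
  have hcc : (c : F) * c = 1 := by
    have h' : ((c : F) * c - 1) * f u (Pi.single i 1) = 0 := by linear_combination h
    rcases mul_eq_zero.mp h' with h'' | h''
    · linear_combination h''
    · exact absurd h'' hu
  rcases mul_self_eq_one_iff.mp hcc with h1 | h1
  · left
    apply Units.ext
    rw [hc, h1, one_smul, Units.val_one]
  · right
    apply Units.ext
    rw [hc, h1, Units.val_neg, Units.val_one, neg_smul, one_smul]

theorem e5card_neg_mem_scalars : (-1 : GL ι F) ∈ scalars ι F := by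
  rw [mem_scalars_iff]
  exact ⟨-1, by rw [Units.val_neg, Units.val_one, Units.val_neg, Units.val_one, neg_smul, one_smul]⟩

theorem e5card_scalar_comm (z : GL ι F) (hz : z ∈ scalars ι F) (y : GL ι F) : z * y = y * z := by
  obtain ⟨c, hc⟩ := (mem_scalars_iff z).1 hz
  apply Units.ext
  rw [Units.val_mul, Units.val_mul, hc, Matrix.smul_mul, Matrix.mul_smul, Matrix.one_mul,
    Matrix.mul_one]

theorem e5card_neg_ne [Nonempty ι] (h2 : (2 : F) ≠ 0) : (-1 : GL ι F) ≠ 1 := by
  intro h
  obtain ⟨i⟩ := ‹Nonempty ι›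
  have h' := congrArg (fun u : GL ι F => (u : Matrix ι ι F) i i) h
  simp only [Units.val_neg, Units.val_one, Matrix.neg_apply, Matrix.one_apply_eq] at h'
  apply h2
  linear_combination -h'

/-- the scalars of `R` have order 2 -/
theorem e5card_two [Nonempty ι] (h2 : (2 : F) ≠ 0) (f : (ι → F) → (ι → F) → F)
    (hf : IsSymplecticForm f) (R : Subgroup (GL ι F)) (hR : IsEx5 f R) :
    Nat.card ((scalars ι F).subgroupOf R) = 2 := by
  have heq : (scalars ι F).subgroupOf R = Subgroup.zpowers (⟨-1, hR.neg⟩ : R) := by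
    apply le_antisymm
    · intro x hx
      rw [Subgroup.mem_subgroupOf] at hx
      rcases e5card_pm f hf R hR.fixes x.1 x.2 hx with h | h
      · have : x = 1 := Subtype.ext h
        rw [this]; exact Subgroup.one_mem _
      · have : x = ⟨-1, hR.neg⟩ := Subtype.ext h
        rw [this]; exact Subgroup.mem_zpowers _
    · rw [Subgroup.zpowers_le, Subgroup.mem_subgroupOf]
      exact e5card_neg_mem_scalars
  rw [heq, Nat.card_zpowers]
  haveI : Fact (Nat.Prime 2) := ⟨Nat.prime_two⟩
  apply orderOf_eq_prime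
  · apply Subtype.ext
    rw [Subgroup.coe_pow, pow_two]
    simp
  · intro h
    exact e5card_neg_ne h2 (congrArg Subtype.val h)

/-- E5CARD. -/
theorem ex5_card [Fintype F] (h2 : (2 : F) ≠ 0) (hcard : Fintype.card ι = 4) (f : (ι → F) → (ι → F) → F)
    (hf : IsSymplecticForm f) (R : Subgroup (GL ι F)) (hR : IsEx5 f R) :
    Nat.card R = 32 ∧ Nat.card (Subgroup.center R) = 2 := by
  haveI hne : Nonempty ι := by
    rw [← Fintype.card_pos_iff, hcard]; norm_num
  have htwo := e5card_two h2 f hf R hR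
  have hsub : matrixSet R ⊆ matrixSet (R ⊔ scalars ι F) := by
    rintro _ ⟨x, hx, rfl⟩
    exact ⟨x, (le_sup_left : R ≤ R ⊔ scalars ι F) hx, rfl⟩
  have habs : ActsAbsolutelyIrreducibly (matrixSet (R ⊔ scalars ι F)) := by
    refine ⟨?_, ?_⟩
    · intro W hW
      exact hR.abs.1 W (fun s hs => hW s (hsub hs))
    · intro M hM
      exact hR.abs.2 M (fun s hs => hM s (hsub hs))
  have hab : ⁅R ⊔ scalars ι F, R ⊔ scalars ι F⁆ ≤ scalars ι F := by
    rw [Subgroup.commutator_le]
    intro g₁ hg₁ g₂ hg₂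
    rw [Subgroup.mem_sup_of_normal_right] at hg₁ hg₂
    obtain ⟨r₁, hr₁, z₁, hz₁, rfl⟩ := hg₁
    obtain ⟨r₂, hr₂, z₂, hz₂, rfl⟩ := hg₂
    have hc1 := e5card_scalar_comm z₁ hz₁
    have hc2 := e5card_scalar_comm z₂ hz₂
    have hkey : (r₁ * z₁) * (r₂ * z₂) = (r₁ * r₂) * (z₁ * z₂) := by
      rw [mul_assoc, ← mul_assoc z₁, hc1 r₂, mul_assoc, mul_assoc]
    have hkey' : (r₂ * z₂) * (r₁ * z₁) = (r₂ * r₁) * (z₁ * z₂) := by
      rw [mul_assoc, ← mul_assoc z₂, hc2 r₁, mul_assoc, mul_assoc, hc2 z₁]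
    have hcomm : ⁅r₁ * z₁, r₂ * z₂⁆ = (r₁ * r₂) * (r₂ * r₁)⁻¹ := by
      rw [commutatorElement_def, mul_assoc (r₁ * z₁ * (r₂ * z₂)), ← mul_inv_rev, hkey, hkey',
        mul_inv_rev, mul_assoc, ← mul_assoc (z₁ * z₂), mul_inv_cancel, one_mul]
    rw [hcomm]
    rcases hR.comm r₁ hr₁ r₂ hr₂ with h | h
    · rw [h, mul_inv_cancel]; exact Subgroup.one_mem _
    · rw [h, neg_mul, mul_inv_cancel]; exact e5card_neg_mem_scalars
  have h16 := card_quot_eq_sq (R ⊔ scalars ι F) le_sup_right habs hab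
  have e := QuotientGroup.quotientInfEquivProdNormalQuotient R (scalars ι F)
  have h16' : Nat.card (R ⧸ (scalars ι F).subgroupOf R) = 16 := by
    rw [Nat.card_congr e.toEquiv, h16, hcard]; norm_num
  refine ⟨?_, ?_⟩
  · rw [Subgroup.card_eq_card_quotient_mul_card_subgroup ((scalars ι F).subgroupOf R), h16', htwo]
  · have hcen : Subgroup.center R = (scalars ι F).subgroupOf R := by
      ext x
      rw [Subgroup.mem_center_iff, Subgroup.mem_subgroupOf]
      constructor
      · intro hx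
        obtain ⟨c, hc⟩ := hR.abs.2 (x.1 : Matrix ι ι F) (by
          rintro _ ⟨y, hy, rfl⟩
          have := congrArg (fun u : R => ((u : GL ι F) : Matrix ι ι F)) (hx ⟨y, hy⟩)
          simpa using this.symm)
        have hc0 : c ≠ 0 := by
          rintro rfl
          have h1 : ((x.1 * x.1⁻¹ : GL ι F) : Matrix ι ι F) = 1 := by
            rw [mul_inv_cancel, Units.val_one]
          rw [Units.val_mul, hc, zero_smul, zero_mul] at h1
          obtain ⟨i⟩ := hne
          have := congrFun (congrFun h1 i) i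
          simp at this
        rw [mem_scalars_iff]
        exact ⟨Units.mk0 c hc0, hc⟩
      · intro hx y
        apply Subtype.ext
        exact (e5card_scalar_comm x.1 hx y.1).symm
    rw [hcen, htwo]

end Cfsg.Agent.Lib.Helper99.SP4O
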