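import Cfsg.Agent.Lib.Helper99.SP4O.Defs
import Cfsg.Agent.Lib.Helper99.SP4O.E5CARD

set_option autoImplicit false

namespace Cfsg.Agent.Lib.Helper99.SP4O

open Cfsg Cfsg.Geo
open Cfsg.Agent.Lib.Helper80.AS
open Cfsg.Agent.Lib.Helper77.Asch (NormBy MinOver)
open scoped MatrixGroups Matrix Kronecker

variable {ι : Type} [Fintype ι] [DecidableEq ι] {F : Type*} [Field F]

theorem e5anti_one_ne (h2 : (2 : F) ≠ 0) [Nonempty ι] : (1 : GL ι F) ≠ -1 := by
  intro h
  have h' := congrArg (fun g : GL ι F => (g : Matrix ι ι F)) h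
  simp only [Units.val_one, Units.val_neg] at h'
  obtain ⟨i⟩ := ‹Nonempty ι›
  have := congrFun (congrFun h' i) i
  simp only [Matrix.one_apply_eq, Matrix.neg_apply] at this
  apply h2
  linear_combination this

/-- a central element of `R` is `± 1`. -/
theorem e5anti_central [Nonempty ι] (f : (ι → F) → (ι → F) → F)
    (hf : IsSymplecticForm f) (R : Subgroup (GL ι F)) (hR : IsEx5 f R) (x : GL ι F) (hx : x ∈ R)
    (h : ∀ y ∈ R, x * y = y * x) : x = 1 ∨ x = -1 := by
  obtain ⟨c, hc⟩ := hR.abs.2 (x : Matrix ι ι F) (by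
    rintro _ ⟨y, hy, rfl⟩
    rw [← Units.val_mul, h y hy, Units.val_mul])
  obtain ⟨i⟩ := ‹Nonempty ι›
  have hv : (Pi.single i 1 : ι → F) ≠ 0 := by
    intro h0
    have := congrFun h0 i
    simp at this
  obtain ⟨⟨u, hu⟩, -⟩ := hf.nondegenerate _ hv
  have h1 := hR.fixes (x : Matrix ι ι F) ⟨x, hx, rfl⟩ u (Pi.single i 1)
  rw [hc, Matrix.smul_mulVec, Matrix.smul_mulVec, Matrix.one_mulVec, Matrix.one_mulVec, hf.bilinear.smul_left,
    hf.bilinear.smul_right] at h1
  have h3 : c * c = 1 := by
    have : (c * c - 1) * f u (Pi.single i 1) = 0 := by linear_combination h1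
    rcases mul_eq_zero.mp this with h4 | h4
    · linear_combination h4
    · exact absurd h4 hu
  rcases mul_self_eq_one_iff.mp h3 with rfl | rfl
  · left
    apply Units.ext
    rw [hc, one_smul, Units.val_one]
  · right
    apply Units.ext
    rw [hc, Units.val_neg, Units.val_one, neg_smul, one_smul]

theorem ex5_anti [Fintype F] (h2 : (2 : F) ≠ 0) (hcard : Fintype.card ι = 4) (f : (ι → F) → (ι → F) → F)
    (hf : IsSymplecticForm f) (R : Subgroup (GL ι F)) (hR : IsEx5 f R) (a : GL ι F) (ha : a ∈ R) (ha1 : a ≠ 1)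
    (ha2 : a ≠ -1) : ∃ b ∈ R, a * b = -(b * a) ∧ b * b = -1 := by
  classical
  have hne : Nonempty ι := by
    rw [← Fintype.card_pos_iff, hcard]
    norm_num
  have h1ne : (1 : GL ι F) ≠ -1 := e5anti_one_ne h2
  have hcen := e5anti_central f hf R hR
  obtain ⟨b₀, hb₀, hab'⟩ : ∃ b₀ ∈ R, a * b₀ ≠ b₀ * a := by
    by_contra hcon
    push Not at hcon
    rcases hcen a ha hcon with h | h
    · exact ha1 h
    · exact ha2 h
  have hab : a * b₀ = -(b₀ * a) := (hR.comm a ha b₀ hb₀).resolve_left hab'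
  have hba : b₀ * a = -(a * b₀) := by rw [hab, neg_neg]
  rcases hR.sq b₀ hb₀ with hb2 | hb2
  swap
  · exact ⟨b₀, hb₀, hab, hb2⟩
  rcases hR.sq a ha with hasq | hasq
  · refine ⟨a * b₀, R.mul_mem ha hb₀, ?_, ?_⟩
    · rw [mul_assoc a b₀ a, hba, mul_neg, neg_neg]
    · calc (a * b₀) * (a * b₀) = a * (b₀ * a) * b₀ := by simp only [mul_assoc]
        _ = a * (-(a * b₀)) * b₀ := by rw [hba]
        _ = -((a * a) * (b₀ * b₀)) := by simp only [mul_neg, neg_mul, mul_assoc]
        _ = -1 := by rw [hasq, hb2, one_mul]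
  -- the hard case
  obtain ⟨c', hc'R, hc'a, hc'b, hc'sq⟩ : ∃ c ∈ R, c * a = a * c ∧ c * b₀ = b₀ * c ∧ c * c = -1 := by
    by_contra hno
    push Not at hno
    have hsq1 : ∀ c ∈ R, c * a = a * c → c * b₀ = b₀ * c → c * c = 1 := fun c hc h1 h3 =>
      (hR.sq c hc).resolve_right (hno c hc h1 h3)
    have hCcomm : ∀ c ∈ R, c * a = a * c → c * b₀ = b₀ * c → ∀ d ∈ R, d * a = a * d → d * b₀ = b₀ * d →
        c * d = d * c := by
      intro c hc hca hcb d hd hda hdb
      rcases hR.comm c hc d hd with h | h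
      · exact h
      · exfalso
        have hdc : d * c = -(c * d) := by rw [h, neg_neg]
        have hcd := hsq1 (c * d) (R.mul_mem hc hd)
          (by rw [mul_assoc, hda, ← mul_assoc, hca, mul_assoc])
          (by rw [mul_assoc, hdb, ← mul_assoc, hcb, mul_assoc])
        have : (c * d) * (c * d) = -1 := by
          calc (c * d) * (c * d) = c * (d * c) * d := by simp only [mul_assoc]
            _ = c * (-(c * d)) * d := by rw [hdc]
            _ = -((c * c) * (d * d)) := by simp only [mul_neg, neg_mul, mul_assoc]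
            _ = -1 := by rw [hsq1 c hc hca hcb, hsq1 d hd hda hdb, one_mul]
        exact h1ne (hcd.symm.trans this)
    have hdec : ∀ g ∈ R, ∃ A B : GL ι F, (A = 1 ∨ A = a) ∧ (B = 1 ∨ B = b₀) ∧
        (g * B * A) * a = a * (g * B * A) ∧ (g * B * A) * b₀ = b₀ * (g * B * A) := by
      intro g hg
      obtain ⟨B, hB, hBa⟩ : ∃ B : GL ι F, (B = 1 ∨ B = b₀) ∧ (g * B) * a = a * (g * B) := by
        rcases hR.comm g hg a ha with h | h
        · exact ⟨1, Or.inl rfl, by rw [mul_one, h]⟩
        · refine ⟨b₀, Or.inr rfl, ?_⟩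
          calc (g * b₀) * a = g * (b₀ * a) := by rw [mul_assoc]
            _ = -((g * a) * b₀) := by rw [hba, mul_neg, mul_assoc]
            _ = a * (g * b₀) := by rw [h, neg_mul, neg_neg, mul_assoc]
      have hgB : g * B ∈ R := by
        rcases hB with rfl | rfl
        · simpa using hg
        · exact R.mul_mem hg hb₀
      rcases hR.comm (g * B) hgB b₀ hb₀ with h | h
      · exact ⟨1, B, Or.inl rfl, hB, by rw [mul_one, hBa], by rw [mul_one, h]⟩
      · refine ⟨a, B, Or.inr rfl, hB, ?_, ?_⟩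
        · rw [hBa, mul_assoc]
          rw [← hBa]
        · calc (g * B * a) * b₀ = (g * B) * (a * b₀) := by rw [mul_assoc]
            _ = -(((g * B) * b₀) * a) := by rw [hab, mul_neg]; simp only [mul_assoc]
            _ = b₀ * (g * B * a) := by rw [h, neg_mul, neg_neg, mul_assoc]
    have hmemg : ∀ g ∈ R, ∀ A B : GL ι F, (A = 1 ∨ A = a) → (B = 1 ∨ B = b₀) → g * B * A ∈ R := by
      intro g hg A B hA hB
      have hA' : A ∈ R := by rcases hA with rfl | rfl; exacts [R.one_mem, ha]
      have hB' : B ∈ R := by rcases hB with rfl | rfl; exacts [R.one_mem, hb₀]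
      exact R.mul_mem (R.mul_mem hg hB') hA'
    have hCcen : ∀ c ∈ R, c * a = a * c → c * b₀ = b₀ * c → c = 1 ∨ c = -1 := by
      intro c hc hca hcb
      apply hcen c hc
      intro y hy
      obtain ⟨A, B, hA, hB, e1, e2⟩ := hdec y hy
      have hcg : Commute c (y * B * A) := hCcomm c hc hca hcb _ (hmemg y hy A B hA hB) e1 e2
      have hcA : Commute c A := by
        rcases hA with rfl | rfl
        · exact Commute.one_right c
        · exact hca
      have hcB : Commute c B := by
        rcases hB with rfl | rfl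
        · exact Commute.one_right c
        · exact hcb
      have e : y = (y * B * A) * A⁻¹ * B⁻¹ := by group
      have : Commute c y := by
        rw [e]
        exact (hcg.mul_right hcA.inv_right).mul_right hcB.inv_right
      exact this
    let ψ : Bool × Bool × Bool → GL ι F := fun t =>
      (if t.1 then (-1 : GL ι F) else 1) * (if t.2.1 then a else 1)⁻¹ * (if t.2.2 then b₀ else 1)⁻¹
    have hex : ∀ g : R, ∃ t, ψ t = (g : GL ι F) := by
      rintro ⟨g, hg⟩
      obtain ⟨A, B, hA, hB, e1, e2⟩ := hdec g hg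
      have hs := hCcen _ (hmemg g hg A B hA hB) e1 e2
      obtain ⟨i, hi⟩ : ∃ i : Bool, (if i then a else 1) = A := by
        rcases hA with rfl | rfl
        · exact ⟨false, by simp⟩
        · exact ⟨true, by simp⟩
      obtain ⟨j, hj⟩ : ∃ j : Bool, (if j then b₀ else 1) = B := by
        rcases hB with rfl | rfl
        · exact ⟨false, by simp⟩
        · exact ⟨true, by simp⟩
      obtain ⟨s, hs'⟩ : ∃ s : Bool, (if s then (-1 : GL ι F) else 1) = g * B * A := by
        rcases hs with h | h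
        · exact ⟨false, by simp [h]⟩
        · exact ⟨true, by simp [h]⟩
      refine ⟨(s, i, j), ?_⟩
      change (if s then (-1 : GL ι F) else 1) * (if i then a else 1)⁻¹ * (if j then b₀ else 1)⁻¹ = g
      rw [hs', hi, hj]
      group
    choose τ hτ using hex
    have hinj : Function.Injective τ := by
      intro g g' h
      apply Subtype.ext
      rw [← hτ g, ← hτ g', h]
    have hle := Nat.card_le_card_of_injective τ hinj
    have h8 : Nat.card (Bool × Bool × Bool) = 8 := by
      rw [Nat.card_eq_fintype_card]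
      rfl
    have h32 := (ex5_card h2 hcard f hf R hR).1
    omega
  refine ⟨b₀ * c', R.mul_mem hb₀ hc'R, ?_, ?_⟩
  · rw [mul_assoc b₀ c' a, hc'a, ← mul_assoc b₀ a c', hba, neg_mul, neg_neg, mul_assoc]
  · calc (b₀ * c') * (b₀ * c') = b₀ * (c' * b₀) * c' := by simp only [mul_assoc]
      _ = (b₀ * b₀) * (c' * c') := by rw [hc'b]; simp only [mul_assoc]
      _ = -1 := by rw [hb2, hc'sq, one_mul]

end Cfsg.Agent.Lib.Helper99.SP4O
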