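import Mathlib
import Cfsg.Prelude.Def_GeometricClasses

/-! Ladder ASP4O, helper file for E5BAS: the scalars `α β` and the common eigenvector `v`. -/

set_option autoImplicit false
set_option linter.unusedSectionVars false

namespace Cfsg.Agent.Lib.Helper99.SP4O

open Cfsg Cfsg.Geo
open scoped MatrixGroups Matrix

variable {ι : Type} [Fintype ι] [DecidableEq ι] {F : Type*} [Field F]

/-- `-1` is a sum of two squares in every subfield of a finite field. -/
theorem e5b2_sq [Fintype F] (F₀ : Subfield F) : ∃ α β : F, α ∈ F₀ ∧ β ∈ F₀ ∧ α ^ 2 + β ^ 2 = -1 := by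
  obtain ⟨p, hp⟩ := CharP.exists F
  have hpp : Fact p.Prime := ⟨CharP.char_is_prime F p⟩
  obtain ⟨x, y, -, -, hxy⟩ := Nat.sq_add_sq_zmodEq p (-1)
  refine ⟨(x : F), (y : F), natCast_mem _ _, natCast_mem _ _, ?_⟩
  have h := (CharP.intCast_eq_intCast F p).2 hxy
  push_cast at h
  exact h

theorem e5b2_exists_ne (M : Matrix ι ι F) (hM : M ≠ 0) : ∃ v : ι → F, M *ᵥ v ≠ 0 := by
  by_contra hcon
  push Not at hcon
  apply hM
  ext i j
  have := congrFun (hcon (Pi.single j 1)) i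
  simpa using this

/-- matrix version. -/
theorem e5b2_mat (h2 : (2 : F) ≠ 0) (A B C D : Matrix ι ι F) (hB0 : B ≠ 0)
    (ha : A * A = 1) (hc : C * C = -1) (hd : D * D = -1) (hab : A * B = -(B * A))
    (hcd : C * D = -(D * C)) (hac : A * C = C * A) (had : A * D = D * A) (α β : F) (hαβ : α ^ 2 + β ^ 2 = -1) :
    ∃ v : ι → F, v ≠ 0 ∧ A *ᵥ v = v ∧ (α • C + β • D) *ᵥ v = v := by
  have hdc : D * C = -(C * D) := by rw [hcd, neg_neg]
  have h1A : (1 + A) ≠ 0 := by
    intro h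
    have hA : A = -1 := eq_neg_of_add_eq_zero_right h
    rw [hA] at hab
    simp only [neg_mul, one_mul, mul_neg, mul_one, neg_neg] at hab
    apply hB0
    have h3 : (2 : F) • B = 0 := by
      rw [two_smul]
      nth_rewrite 1 [← hab]
      exact neg_add_cancel B
    exact (smul_eq_zero.1 h3).resolve_left h2
  obtain ⟨v₀, hv₀⟩ := e5b2_exists_ne _ h1A
  set v₁ := (1 + A) *ᵥ v₀ with hv₁
  have hAv₁ : A *ᵥ v₁ = v₁ := by
    rw [hv₁, Matrix.mulVec_mulVec, mul_add, mul_one, ha, add_comm]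
  set t := α • C + β • D with ht
  set s := β • C - α • D with hs
  have htt : t * t = 1 := by
    have h : t * t = (-(α ^ 2 + β ^ 2)) • (1 : Matrix ι ι F) := by
      rw [ht]
      simp only [add_mul, mul_add, smul_mul_assoc, mul_smul_comm, hc, hd, hdc]
      module
    rw [h, hαβ, neg_neg, one_smul]
  have hss : s * s = 1 := by
    have h : s * s = (-(α ^ 2 + β ^ 2)) • (1 : Matrix ι ι F) := by
      rw [hs]
      simp only [sub_mul, mul_sub, smul_mul_assoc, mul_smul_comm, hc, hd, hdc]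
      module
    rw [h, hαβ, neg_neg, one_smul]
  have hts : t * s = -(s * t) := by
    rw [ht, hs]
    simp only [add_mul, mul_add, sub_mul, mul_sub, smul_mul_assoc, mul_smul_comm, hc, hd, hdc]
    module
  have hAt : A * t = t * A := by
    rw [ht]
    simp only [add_mul, mul_add, smul_mul_assoc, mul_smul_comm, hac, had]
  have hAs : A * s = s * A := by
    rw [hs]
    simp only [sub_mul, mul_sub, smul_mul_assoc, mul_smul_comm, hac, had]
  by_cases hcase : (1 + t) *ᵥ v₁ = 0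
  · have htv : t *ᵥ v₁ = -v₁ := by
      rw [Matrix.add_mulVec, Matrix.one_mulVec] at hcase
      exact eq_neg_of_add_eq_zero_right hcase
    refine ⟨s *ᵥ v₁, ?_, ?_, ?_⟩
    · intro h
      apply hv₀
      have : v₁ = (s * s) *ᵥ v₁ := by rw [hss, Matrix.one_mulVec]
      rw [this, ← Matrix.mulVec_mulVec, h, Matrix.mulVec_zero]
    · rw [Matrix.mulVec_mulVec, hAs, ← Matrix.mulVec_mulVec, hAv₁]
    · rw [Matrix.mulVec_mulVec, hts, Matrix.neg_mulVec, ← Matrix.mulVec_mulVec, htv, Matrix.mulVec_neg,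
        neg_neg]
  · refine ⟨(1 + t) *ᵥ v₁, hcase, ?_, ?_⟩
    · rw [Matrix.mulVec_mulVec, mul_add, mul_one, hAt, Matrix.add_mulVec, ← Matrix.mulVec_mulVec, hAv₁,
        Matrix.add_mulVec 1 t, Matrix.one_mulVec]
    · rw [Matrix.mulVec_mulVec, mul_add, mul_one, htt, add_comm]

/-- the scalars and the vector of E5BAS. -/
theorem e5b2_vec0 [Fintype F] (h2 : (2 : F) ≠ 0) (hcard : Fintype.card ι = 4) (a b c d : GL ι F)
    (ha : a * a = 1) (hc : c * c = -1) (hd : d * d = -1) (hab : a * b = -(b * a))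
    (hcd : c * d = -(d * c)) (hac : a * c = c * a) (had : a * d = d * a) (F₀ : Subfield F) :
    ∃ (α β : F) (v : ι → F), α ∈ F₀ ∧ β ∈ F₀ ∧ α ^ 2 + β ^ 2 = -1 ∧ v ≠ 0 ∧ (a : Matrix ι ι F) *ᵥ v = v ∧
      (α • (c : Matrix ι ι F) + β • (d : Matrix ι ι F)) *ᵥ v = v := by
  obtain ⟨α, β, hα, hβ, hαβ⟩ := e5b2_sq F₀
  have hne : Nonempty ι := Fintype.card_pos_iff.1 (by omega)
  have hb0 : (b : Matrix ι ι F) ≠ 0 := b.ne_zero
  obtain ⟨v, hv, hav, htv⟩ := e5b2_mat h2 (a : Matrix ι ι F) b c d hb0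
    (by rw [← Units.val_mul, ha, Units.val_one])
    (by rw [← Units.val_mul, hc, Units.val_neg, Units.val_one])
    (by rw [← Units.val_mul, hd, Units.val_neg, Units.val_one])
    (by rw [← Units.val_mul, hab, Units.val_neg, Units.val_mul])
    (by rw [← Units.val_mul, hcd, Units.val_neg, Units.val_mul])
    (by rw [← Units.val_mul, hac, Units.val_mul])
    (by rw [← Units.val_mul, had, Units.val_mul]) α β hαβ
  exact ⟨α, β, v, hα, hβ, hαβ, hv, hav, htv⟩

/-- the exact form asked for by helper45. -/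
theorem e5b2_vec [Fintype F] (h2 : (2 : F) ≠ 0) (hcard : Fintype.card ι = 4) (a b c d : GL ι F)
    (ha : a * a = 1) (hb : b * b = 1 ∨ b * b = -1) (hc : c * c = -1) (hd : d * d = -1) (hab : a * b = -(b * a))
    (hcd : c * d = -(d * c)) (hac : a * c = c * a) (had : a * d = d * a) (hbc : b * c = c * b) (hbd : b * d = d * b)
    (F₀ : Subfield F) :
    ∃ (α β : F) (v : ι → F), α ∈ F₀ ∧ β ∈ F₀ ∧ β ≠ 0 ∧ α ^ 2 + β ^ 2 = -1 ∧ v ≠ 0 ∧
      (a : Matrix ι ι F) *ᵥ v = v ∧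
      α • ((c : Matrix ι ι F) *ᵥ v) + β • ((d : Matrix ι ι F) *ᵥ v) = v := by
  obtain ⟨α, β, hα, hβ, hβ0, hαβ⟩ : ∃ α β : F, α ∈ F₀ ∧ β ∈ F₀ ∧ β ≠ 0 ∧ α ^ 2 + β ^ 2 = -1 := by
    obtain ⟨α, β, hα, hβ, hαβ⟩ := e5b2_sq F₀
    by_cases hβ0 : β = 0
    · refine ⟨β, α, hβ, hα, ?_, by rw [add_comm]; exact hαβ⟩
      intro hα0
      rw [hα0, hβ0] at hαβ
      norm_num at hαβ
    · exact ⟨α, β, hα, hβ, hβ0, hαβ⟩
  have hne : Nonempty ι := Fintype.card_pos_iff.1 (by omega)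
  have hb0 : (b : Matrix ι ι F) ≠ 0 := b.ne_zero
  obtain ⟨v, hv, hav, htv⟩ := e5b2_mat h2 (a : Matrix ι ι F) b c d hb0
    (by rw [← Units.val_mul, ha, Units.val_one])
    (by rw [← Units.val_mul, hc, Units.val_neg, Units.val_one])
    (by rw [← Units.val_mul, hd, Units.val_neg, Units.val_one])
    (by rw [← Units.val_mul, hab, Units.val_neg, Units.val_mul])
    (by rw [← Units.val_mul, hcd, Units.val_neg, Units.val_mul])
    (by rw [← Units.val_mul, hac, Units.val_mul])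
    (by rw [← Units.val_mul, had, Units.val_mul]) α β hαβ
  refine ⟨α, β, v, hα, hβ, hβ0, hαβ, hv, hav, ?_⟩
  rw [Matrix.add_mulVec, Matrix.smul_mulVec, Matrix.smul_mulVec] at htv
  exact htv

end Cfsg.Agent.Lib.Helper99.SP4O
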