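import Cfsg.Agent.Lib.Helper99.SP4O.Defs
import Cfsg.Agent.Lib.Helper99.SP4O.E5B2

/-! Ladder ASP4O, rung E5BAS (helper45): `2_-^{1+4}` is realisable over the prime field. -/

set_option autoImplicit false

namespace Cfsg.Agent.Lib.Helper99.SP4O

open Cfsg Cfsg.Geo
open Cfsg.Agent.Lib.Helper80.AS
open Cfsg.Agent.Lib.Helper77.Asch (NormBy MinOver)
open scoped MatrixGroups Matrix Kronecker

variable {ι : Type} [Fintype ι] [DecidableEq ι] {F : Type*} [Field F]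

/-- the matrix with columns `w (e j)`. -/
def e5basP (e : ι ≃ Fin 4) (w : Fin 4 → ι → F) : Matrix ι ι F := Matrix.of fun i j => w (e j) i

omit [DecidableEq ι] in
theorem e5bas_mulVec (e : ι ≃ Fin 4) (w : Fin 4 → ι → F) (u : ι → F) :
    e5basP e w *ᵥ u = ∑ l : Fin 4, u (e.symm l) • w l := by
  ext i
  simp only [e5basP, Matrix.mulVec, dotProduct, Matrix.of_apply, Finset.sum_apply, Pi.smul_apply, smul_eq_mul]
  rw [← Equiv.sum_comp e]
  apply Finset.sum_congr rfl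
  intro j _
  rw [Equiv.symm_apply_apply, mul_comm]

theorem e5bas_isUnit (e : ι ≃ Fin 4) (w : Fin 4 → ι → F)
    (hind : ∀ x : Fin 4 → F, ∑ l, x l • w l = 0 → x = 0) : IsUnit (e5basP e w) := by
  rw [← Matrix.mulVec_injective_iff_isUnit]
  intro u u' h
  have h0 : e5basP e w *ᵥ (u - u') = 0 := by rw [Matrix.mulVec_sub, h, sub_self]
  rw [e5bas_mulVec] at h0
  have := hind (fun l => (u - u') (e.symm l)) h0
  ext i
  have h1 := congrFun this (e i)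
  simp only [Equiv.symm_apply_apply, Pi.sub_apply, Pi.zero_apply] at h1
  exact sub_eq_zero.mp h1

theorem e5bas_conj (e : ι ≃ Fin 4) (w : Fin 4 → ι → F) (P : GL ι F) (hP : (P : Matrix ι ι F) = e5basP e w)
    (g : Matrix ι ι F) (m : Fin 4 → Fin 4 → F) (h : ∀ l', g *ᵥ w l' = ∑ l, m l l' • w l) (i j : ι) :
    (((P⁻¹ : GL ι F) : Matrix ι ι F) * g * (P : Matrix ι ι F)) i j = m (e i) (e j) := by
  have h1 : g * (P : Matrix ι ι F) = (P : Matrix ι ι F) * Matrix.of (fun i j => m (e i) (e j)) := by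
    rw [hP]
    ext i j
    have h2 := congrFun (h (e j)) i
    simp only [Matrix.mulVec, dotProduct, Finset.sum_apply, Pi.smul_apply, smul_eq_mul] at h2
    simp only [Matrix.mul_apply, e5basP, Matrix.of_apply]
    rw [h2, ← Equiv.sum_comp e]
    apply Finset.sum_congr rfl
    intro k _
    rw [mul_comm]
  rw [mul_assoc, h1, ← mul_assoc, ← Units.val_mul, inv_mul_cancel, Units.val_one, one_mul, Matrix.of_apply]

/-- `g` maps the basis vectors to `F₀`-combinations of the basis vectors. -/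
def E5Rat (F₀ : Subfield F) (w : Fin 4 → ι → F) (g : Matrix ι ι F) : Prop :=
  ∀ l', ∃ x : Fin 4 → F, (∀ l, x l ∈ F₀) ∧ g *ᵥ w l' = ∑ l, x l • w l

theorem e5bas_entries (F₀ : Subfield F) (e : ι ≃ Fin 4) (w : Fin 4 → ι → F) (P : GL ι F)
    (hP : (P : Matrix ι ι F) = e5basP e w) (g : Matrix ι ι F) (h : E5Rat F₀ w g) (i j : ι) :
    (((P⁻¹ : GL ι F) : Matrix ι ι F) * g * (P : Matrix ι ι F)) i j ∈ F₀ := by
  choose x hx hg using h
  rw [e5bas_conj e w P hP g (fun l l' => x l' l) hg]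
  exact hx _ _

omit [Fintype ι] [DecidableEq ι] in
theorem e5bas_mk (F₀ : Subfield F) (w : Fin 4 → ι → F) (u : ι → F) (x0 x1 x2 x3 : F) (h0 : x0 ∈ F₀) (h1 : x1 ∈ F₀)
    (h2 : x2 ∈ F₀) (h3 : x3 ∈ F₀) (h : u = x0 • w 0 + x1 • w 1 + x2 • w 2 + x3 • w 3) :
    ∃ x : Fin 4 → F, (∀ l, x l ∈ F₀) ∧ u = ∑ l, x l • w l := by
  refine ⟨![x0, x1, x2, x3], ?_, ?_⟩
  · intro l
    fin_cases l
    · exact h0
    · exact h1
    · exact h2
    · exact h3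
  · rw [Fin.sum_univ_four]
    exact h

theorem e5bas_all {p : Fin 4 → Prop} (h0 : p 0) (h1 : p 1) (h2 : p 2) (h3 : p 3) : ∀ l, p l := by
  intro l
  fin_cases l
  · exact h0
  · exact h1
  · exact h2
  · exact h3

theorem e5bas_rat_mul (F₀ : Subfield F) (B : GL ι F) (x y : Matrix ι ι F)
    (hx : ∀ i j, ((B : Matrix ι ι F) * x * ((B⁻¹ : GL ι F) : Matrix ι ι F)) i j ∈ F₀)
    (hy : ∀ i j, ((B : Matrix ι ι F) * y * ((B⁻¹ : GL ι F) : Matrix ι ι F)) i j ∈ F₀) :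
    ∀ i j, ((B : Matrix ι ι F) * (x * y) * ((B⁻¹ : GL ι F) : Matrix ι ι F)) i j ∈ F₀ := by
  intro i j
  have hB : ((B⁻¹ : GL ι F) : Matrix ι ι F) * (B : Matrix ι ι F) = 1 := by
    rw [← Units.val_mul, inv_mul_cancel, Units.val_one]
  have : (B : Matrix ι ι F) * (x * y) * ((B⁻¹ : GL ι F) : Matrix ι ι F) =
      ((B : Matrix ι ι F) * x * ((B⁻¹ : GL ι F) : Matrix ι ι F)) * ((B : Matrix ι ι F) * y * ((B⁻¹ : GL ι F) : Matrix ι ι F)) := by
    calc (B : Matrix ι ι F) * (x * y) * ((B⁻¹ : GL ι F) : Matrix ι ι F)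
        = (B : Matrix ι ι F) * x * 1 * y * ((B⁻¹ : GL ι F) : Matrix ι ι F) := by simp only [mul_assoc, one_mul]
      _ = _ := by rw [← hB]; simp only [mul_assoc]
  rw [this, Matrix.mul_apply]
  exact sum_mem (fun k _ => mul_mem (hx i k) (hy k j))

/-- from rational generators (whose inverses are `±` themselves) to the closure. -/
theorem e5bas_closure (F₀ : Subfield F) (B : GL ι F) (S : Set (GL ι F))
    (hS : ∀ g ∈ S, ∀ i j, ((B : Matrix ι ι F) * (g : Matrix ι ι F) * ((B⁻¹ : GL ι F) : Matrix ι ι F)) i j ∈ F₀)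
    (hinv : ∀ g ∈ S, g⁻¹ = g ∨ g⁻¹ = -g) : RealisableOver F₀ (matrixSet (Subgroup.closure S)) := by
  refine ⟨B, ?_⟩
  rintro _ ⟨g, hg, rfl⟩
  have key : (∀ i j, ((B : Matrix ι ι F) * (g : Matrix ι ι F) * ((B⁻¹ : GL ι F) : Matrix ι ι F)) i j ∈ F₀) ∧
      (∀ i j, ((B : Matrix ι ι F) * ((g⁻¹ : GL ι F) : Matrix ι ι F) * ((B⁻¹ : GL ι F) : Matrix ι ι F)) i j ∈ F₀) := by
    induction hg using Subgroup.closure_induction with
    | mem x hx =>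
      refine ⟨hS x hx, ?_⟩
      rcases hinv x hx with h | h
      · rw [h]; exact hS x hx
      · rw [h]
        intro i j
        rw [Units.val_neg, mul_neg, neg_mul, Matrix.neg_apply]
        exact neg_mem (hS x hx i j)
    | one =>
      have : ∀ i j, ((B : Matrix ι ι F) * ((1 : GL ι F) : Matrix ι ι F) * ((B⁻¹ : GL ι F) : Matrix ι ι F)) i j ∈ F₀ := by
        intro i j
        rw [Units.val_one, mul_one, ← Units.val_mul, mul_inv_cancel, Units.val_one, Matrix.one_apply]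
        split_ifs
        · exact one_mem _
        · exact zero_mem _
      refine ⟨this, ?_⟩
      rw [inv_one]
      exact this
    | mul x y _ _ hx hy =>
      refine ⟨?_, ?_⟩
      · rw [Units.val_mul]
        exact e5bas_rat_mul F₀ B _ _ hx.1 hy.1
      · rw [mul_inv_rev, Units.val_mul]
        exact e5bas_rat_mul F₀ B _ _ hy.2 hx.2
    | inv x _ hx =>
      refine ⟨hx.2, ?_⟩
      rw [inv_inv]
      exact hx.1
  exact key.1

theorem e5bas_ind (h2 : (2 : F) ≠ 0) (a b c d : GL ι F)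
    (hc : c * c = -1) (hd : d * d = -1) (hab : a * b = -(b * a))
    (hcd : c * d = -(d * c)) (hac : a * c = c * a)
    (α β : F) (hβ : β ≠ 0) (v : ι → F) (hv : v ≠ 0) (hav : (a : Matrix ι ι F) *ᵥ v = v)
    (htv : α • ((c : Matrix ι ι F) *ᵥ v) + β • ((d : Matrix ι ι F) *ᵥ v) = v) (x : Fin 4 → F)
    (h : x 0 • v + x 1 • ((c : Matrix ι ι F) *ᵥ v) + x 2 • ((b : Matrix ι ι F) *ᵥ v) +
      x 3 • ((b : Matrix ι ι F) *ᵥ ((c : Matrix ι ι F) *ᵥ v)) = 0) : x = 0 := by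
  have cc : ∀ u, (c : Matrix ι ι F) *ᵥ ((c : Matrix ι ι F) *ᵥ u) = -u := by
    intro u
    rw [Matrix.mulVec_mulVec, ← Units.val_mul, hc, Units.val_neg, Units.val_one, Matrix.neg_mulVec, Matrix.one_mulVec]
  have dd : ∀ u, (d : Matrix ι ι F) *ᵥ ((d : Matrix ι ι F) *ᵥ u) = -u := by
    intro u
    rw [Matrix.mulVec_mulVec, ← Units.val_mul, hd, Units.val_neg, Units.val_one, Matrix.neg_mulVec, Matrix.one_mulVec]
  have ab : ∀ u, (a : Matrix ι ι F) *ᵥ ((b : Matrix ι ι F) *ᵥ u) = -((b : Matrix ι ι F) *ᵥ ((a : Matrix ι ι F) *ᵥ u)) := by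
    intro u
    rw [Matrix.mulVec_mulVec, ← Units.val_mul, hab, Units.val_neg, Units.val_mul, Matrix.neg_mulVec, Matrix.mulVec_mulVec]
  have cd : ∀ u, (c : Matrix ι ι F) *ᵥ ((d : Matrix ι ι F) *ᵥ u) = -((d : Matrix ι ι F) *ᵥ ((c : Matrix ι ι F) *ᵥ u)) := by
    intro u
    rw [Matrix.mulVec_mulVec, ← Units.val_mul, hcd, Units.val_neg, Units.val_mul, Matrix.neg_mulVec, Matrix.mulVec_mulVec]
  have ac : ∀ u, (a : Matrix ι ι F) *ᵥ ((c : Matrix ι ι F) *ᵥ u) = (c : Matrix ι ι F) *ᵥ ((a : Matrix ι ι F) *ᵥ u) := by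
    intro u
    rw [Matrix.mulVec_mulVec, ← Units.val_mul, hac, Units.val_mul, Matrix.mulVec_mulVec]
  have ind2 : ∀ y0 y1 : F, y0 • v + y1 • ((c : Matrix ι ι F) *ᵥ v) = 0 → y0 = 0 ∧ y1 = 0 := by
    intro y0 y1 h
    by_cases hy1 : y1 = 0
    · rw [hy1, zero_smul, add_zero] at h
      exact ⟨(smul_eq_zero.mp h).resolve_right hv, hy1⟩
    · exfalso
      obtain ⟨lam, hC⟩ : ∃ lam : F, (c : Matrix ι ι F) *ᵥ v = lam • v := by
        refine ⟨-(y1⁻¹ * y0), ?_⟩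
        have h1 : y1 • ((c : Matrix ι ι F) *ᵥ v) = -(y0 • v) := eq_neg_of_add_eq_zero_right h
        rw [← inv_smul_smul₀ hy1 ((c : Matrix ι ι F) *ᵥ v), h1, smul_neg, smul_smul, neg_smul]
      obtain ⟨mu, hD⟩ : ∃ mu : F, (d : Matrix ι ι F) *ᵥ v = mu • v := by
        refine ⟨β⁻¹ * (1 - α * lam), ?_⟩
        have h1 : β • ((d : Matrix ι ι F) *ᵥ v) = v - α • ((c : Matrix ι ι F) *ᵥ v) := eq_sub_of_add_eq' htv
        rw [← inv_smul_smul₀ hβ ((d : Matrix ι ι F) *ᵥ v), h1, hC]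
        module
      have h3 := cd v
      rw [hD, hC, Matrix.mulVec_smul, Matrix.mulVec_smul, hC, hD] at h3
      have h4 : (2 * (lam * mu)) • v = 0 := by
        have : mu • lam • v + lam • mu • v = 0 := by rw [h3]; simp
        rw [← this]; module
      have h5 : lam * mu = 0 := by
        rcases smul_eq_zero.mp h4 with h | h
        · exact (mul_eq_zero.mp h).resolve_left h2
        · exact absurd h hv
      have h6 := cc v
      rw [hC, Matrix.mulVec_smul, hC] at h6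
      have h7 := dd v
      rw [hD, Matrix.mulVec_smul, hD] at h7
      rcases mul_eq_zero.mp h5 with h | h
      · rw [h, zero_smul] at h6
        exact hv (neg_eq_zero.mp h6.symm)
      · rw [h, zero_smul] at h7
        exact hv (neg_eq_zero.mp h7.symm)
  have hA : x 0 • v + x 1 • ((c : Matrix ι ι F) *ᵥ v) - x 2 • ((b : Matrix ι ι F) *ᵥ v) -
      x 3 • ((b : Matrix ι ι F) *ᵥ ((c : Matrix ι ι F) *ᵥ v)) = 0 := by
    have := congrArg (fun u => (a : Matrix ι ι F) *ᵥ u) h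
    simp only [Matrix.mulVec_add, Matrix.mulVec_smul, Matrix.mulVec_zero, ab, ac, hav] at this
    rw [← this]; module
  have s1 : x 0 • v + x 1 • ((c : Matrix ι ι F) *ᵥ v) = 0 := by
    have : (2 : F) • (x 0 • v + x 1 • ((c : Matrix ι ι F) *ᵥ v)) = 0 := by
      have h' : (x 0 • v + x 1 • ((c : Matrix ι ι F) *ᵥ v) + x 2 • ((b : Matrix ι ι F) *ᵥ v) +
          x 3 • ((b : Matrix ι ι F) *ᵥ ((c : Matrix ι ι F) *ᵥ v))) + (x 0 • v + x 1 • ((c : Matrix ι ι F) *ᵥ v) - x 2 • ((b : Matrix ι ι F) *ᵥ v) -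
          x 3 • ((b : Matrix ι ι F) *ᵥ ((c : Matrix ι ι F) *ᵥ v))) = 0 := by rw [h, hA, add_zero]
      rw [← h']; module
    exact (smul_eq_zero.mp this).resolve_left h2
  have s2 : x 2 • ((b : Matrix ι ι F) *ᵥ v) + x 3 • ((b : Matrix ι ι F) *ᵥ ((c : Matrix ι ι F) *ᵥ v)) = 0 := by
    have h' : (x 0 • v + x 1 • ((c : Matrix ι ι F) *ᵥ v)) + (x 2 • ((b : Matrix ι ι F) *ᵥ v) +
          x 3 • ((b : Matrix ι ι F) *ᵥ ((c : Matrix ι ι F) *ᵥ v))) = 0 := by rw [← h]; module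
    rw [s1, zero_add] at h'
    exact h'
  have s3 : x 2 • v + x 3 • ((c : Matrix ι ι F) *ᵥ v) = 0 := by
    have e1 : (b : Matrix ι ι F) *ᵥ (x 2 • v + x 3 • ((c : Matrix ι ι F) *ᵥ v)) = 0 := by
      rw [Matrix.mulVec_add, Matrix.mulVec_smul, Matrix.mulVec_smul, s2]
    have e2 : ((b⁻¹ : GL ι F) : Matrix ι ι F) *ᵥ ((b : Matrix ι ι F) *ᵥ (x 2 • v + x 3 • ((c : Matrix ι ι F) *ᵥ v))) =
        x 2 • v + x 3 • ((c : Matrix ι ι F) *ᵥ v) := by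
      rw [Matrix.mulVec_mulVec, ← Units.val_mul, inv_mul_cancel, Units.val_one, Matrix.one_mulVec]
    rw [← e2, e1, Matrix.mulVec_zero]
  obtain ⟨z0, z1⟩ := ind2 _ _ s1
  obtain ⟨z2, z3⟩ := ind2 _ _ s3
  funext l
  fin_cases l
  · exact z0
  · exact z1
  · exact z2
  · exact z3

theorem e5bas_inv (g : GL ι F) (h : g * g = 1 ∨ g * g = -1) : g⁻¹ = g ∨ g⁻¹ = -g := by
  rcases h with h | h
  · left; exact inv_eq_of_mul_eq_one_right h
  · right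
    apply inv_eq_of_mul_eq_one_right
    rw [mul_neg, h, neg_neg]

/-- E5BAS. -/
theorem realisable_of_gen [Fintype F] (h2 : (2 : F) ≠ 0) (hcard : Fintype.card ι = 4) (a b c d : GL ι F)
    (ha : a * a = 1) (hb : b * b = 1 ∨ b * b = -1) (hc : c * c = -1) (hd : d * d = -1) (hab : a * b = -(b * a))
    (hcd : c * d = -(d * c)) (hac : a * c = c * a) (had : a * d = d * a) (hbc : b * c = c * b) (hbd : b * d = d * b)
    (F₀ : Subfield F) : RealisableOver F₀ (matrixSet (Subgroup.closure {a, b, c, d, -1})) := by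
  obtain ⟨α, β, hα, hβ, hβ0, hαβ⟩ : ∃ α β : F, α ∈ F₀ ∧ β ∈ F₀ ∧ β ≠ 0 ∧ α ^ 2 + β ^ 2 = -1 := by
    obtain ⟨α, β, hα, hβ, h⟩ := e5b2_sq F₀
    by_cases hβ0 : β = 0
    · refine ⟨β, α, hβ, hα, ?_, by rw [add_comm]; exact h⟩
      intro hα0
      rw [hβ0, hα0] at h
      simp at h
    · exact ⟨α, β, hα, hβ, hβ0, h⟩
  have hne : Nonempty ι := Fintype.card_pos_iff.1 (by omega)
  obtain ⟨v, hv, hav, htv'⟩ := e5b2_mat h2 (a : Matrix ι ι F) b c d b.ne_zero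
    (by rw [← Units.val_mul, ha, Units.val_one])
    (by rw [← Units.val_mul, hc, Units.val_neg, Units.val_one])
    (by rw [← Units.val_mul, hd, Units.val_neg, Units.val_one])
    (by rw [← Units.val_mul, hab, Units.val_neg, Units.val_mul])
    (by rw [← Units.val_mul, hcd, Units.val_neg, Units.val_mul])
    (by rw [← Units.val_mul, hac, Units.val_mul])
    (by rw [← Units.val_mul, had, Units.val_mul]) α β hαβ
  have htv : α • ((c : Matrix ι ι F) *ᵥ v) + β • ((d : Matrix ι ι F) *ᵥ v) = v := by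
    rw [Matrix.add_mulVec, Matrix.smul_mulVec, Matrix.smul_mulVec] at htv'
    exact htv'
  have cc : ∀ u, (c : Matrix ι ι F) *ᵥ ((c : Matrix ι ι F) *ᵥ u) = -u := by
    intro u
    rw [Matrix.mulVec_mulVec, ← Units.val_mul, hc, Units.val_neg, Units.val_one, Matrix.neg_mulVec, Matrix.one_mulVec]
  have ab : ∀ u, (a : Matrix ι ι F) *ᵥ ((b : Matrix ι ι F) *ᵥ u) = -((b : Matrix ι ι F) *ᵥ ((a : Matrix ι ι F) *ᵥ u)) := by
    intro u
    rw [Matrix.mulVec_mulVec, ← Units.val_mul, hab, Units.val_neg, Units.val_mul, Matrix.neg_mulVec, Matrix.mulVec_mulVec]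
  have cd : ∀ u, (c : Matrix ι ι F) *ᵥ ((d : Matrix ι ι F) *ᵥ u) = -((d : Matrix ι ι F) *ᵥ ((c : Matrix ι ι F) *ᵥ u)) := by
    intro u
    rw [Matrix.mulVec_mulVec, ← Units.val_mul, hcd, Units.val_neg, Units.val_mul, Matrix.neg_mulVec, Matrix.mulVec_mulVec]
  have ac : ∀ u, (a : Matrix ι ι F) *ᵥ ((c : Matrix ι ι F) *ᵥ u) = (c : Matrix ι ι F) *ᵥ ((a : Matrix ι ι F) *ᵥ u) := by
    intro u
    rw [Matrix.mulVec_mulVec, ← Units.val_mul, hac, Units.val_mul, Matrix.mulVec_mulVec]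
  have bc : ∀ u, (b : Matrix ι ι F) *ᵥ ((c : Matrix ι ι F) *ᵥ u) = (c : Matrix ι ι F) *ᵥ ((b : Matrix ι ι F) *ᵥ u) := by
    intro u
    rw [Matrix.mulVec_mulVec, ← Units.val_mul, hbc, Units.val_mul, Matrix.mulVec_mulVec]
  have bd : ∀ u, (b : Matrix ι ι F) *ᵥ ((d : Matrix ι ι F) *ᵥ u) = (d : Matrix ι ι F) *ᵥ ((b : Matrix ι ι F) *ᵥ u) := by
    intro u
    rw [Matrix.mulVec_mulVec, ← Units.val_mul, hbd, Units.val_mul, Matrix.mulVec_mulVec]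
  obtain ⟨ε, hε, bb⟩ : ∃ ε : F, ε ∈ F₀ ∧ ∀ u, (b : Matrix ι ι F) *ᵥ ((b : Matrix ι ι F) *ᵥ u) = ε • u := by
    rcases hb with hb | hb
    · refine ⟨1, one_mem _, fun u => ?_⟩
      rw [Matrix.mulVec_mulVec, ← Units.val_mul, hb, Units.val_one, Matrix.one_mulVec, one_smul]
    · refine ⟨-1, neg_mem (one_mem _), fun u => ?_⟩
      rw [Matrix.mulVec_mulVec, ← Units.val_mul, hb, Units.val_neg, Units.val_one, Matrix.neg_mulVec, Matrix.one_mulVec,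
        neg_smul, one_smul]
  have hdv : (d : Matrix ι ι F) *ᵥ v = β⁻¹ • v + (-(β⁻¹ * α)) • ((c : Matrix ι ι F) *ᵥ v) := by
    have h : β • ((d : Matrix ι ι F) *ᵥ v) = v - α • ((c : Matrix ι ι F) *ᵥ v) := eq_sub_of_add_eq' htv
    rw [← inv_smul_smul₀ hβ0 ((d : Matrix ι ι F) *ᵥ v), h, smul_sub, smul_smul, sub_eq_add_neg, neg_smul]
  have hdc : (d : Matrix ι ι F) *ᵥ ((c : Matrix ι ι F) *ᵥ v) = (-(β⁻¹ * α)) • v + (-β⁻¹) • ((c : Matrix ι ι F) *ᵥ v) := by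
    have h : (d : Matrix ι ι F) *ᵥ ((c : Matrix ι ι F) *ᵥ v) = -((c : Matrix ι ι F) *ᵥ ((d : Matrix ι ι F) *ᵥ v)) := by
      rw [cd v, neg_neg]
    rw [h, hdv, Matrix.mulVec_add, Matrix.mulVec_smul, Matrix.mulVec_smul, cc]
    module
  have m0 : (0 : F) ∈ F₀ := zero_mem _
  have m1 : (1 : F) ∈ F₀ := one_mem _
  have mn1 : (-1 : F) ∈ F₀ := neg_mem m1
  have mb : β⁻¹ ∈ F₀ := inv_mem hβ
  have mnb : -β⁻¹ ∈ F₀ := neg_mem mb
  have mba : -(β⁻¹ * α) ∈ F₀ := neg_mem (mul_mem mb hα)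
  let w : Fin 4 → ι → F := ![v, (c : Matrix ι ι F) *ᵥ v, (b : Matrix ι ι F) *ᵥ v, (b : Matrix ι ι F) *ᵥ ((c : Matrix ι ι F) *ᵥ v)]
  have hind : ∀ x : Fin 4 → F, ∑ l, x l • w l = 0 → x = 0 := by
    intro x hx
    rw [Fin.sum_univ_four] at hx
    exact e5bas_ind h2 a b c d hc hd hab hcd hac α β hβ0 v hv hav htv x hx
  obtain ⟨P, hP⟩ := e5bas_isUnit (Fintype.equivFinOfCardEq hcard) w hind
  apply e5bas_closure F₀ P⁻¹
  · intro g hg i j
    rw [inv_inv]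
    apply e5bas_entries F₀ (Fintype.equivFinOfCardEq hcard) w P hP
    rcases hg with rfl | rfl | rfl | rfl | rfl
    · -- a
      apply e5bas_all
      · refine e5bas_mk F₀ w _ 1 0 0 0 m1 m0 m0 m0 ?_
        show (g : Matrix ι ι F) *ᵥ v = (1 : F) • v + (0 : F) • _ + (0 : F) • _ + (0 : F) • _
        rw [hav]; module
      · refine e5bas_mk F₀ w _ 0 1 0 0 m0 m1 m0 m0 ?_
        show (g : Matrix ι ι F) *ᵥ ((c : Matrix ι ι F) *ᵥ v) = (0 : F) • v + (1 : F) • ((c : Matrix ι ι F) *ᵥ v) + (0 : F) • _ + (0 : F) • _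
        rw [ac, hav]; module
      · refine e5bas_mk F₀ w _ 0 0 (-1) 0 m0 m0 mn1 m0 ?_
        show (g : Matrix ι ι F) *ᵥ ((b : Matrix ι ι F) *ᵥ v) = (0 : F) • v + (0 : F) • ((c : Matrix ι ι F) *ᵥ v) + (-1 : F) • ((b : Matrix ι ι F) *ᵥ v) + (0 : F) • _
        rw [ab, hav]; module
      · refine e5bas_mk F₀ w _ 0 0 0 (-1) m0 m0 m0 mn1 ?_
        show (g : Matrix ι ι F) *ᵥ ((b : Matrix ι ι F) *ᵥ ((c : Matrix ι ι F) *ᵥ v)) = (0 : F) • v + (0 : F) • ((c : Matrix ι ι F) *ᵥ v) + (0 : F) • ((b : Matrix ι ι F) *ᵥ v) + (-1 : F) • ((b : Matrix ι ι F) *ᵥ ((c : Matrix ι ι F) *ᵥ v))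
        rw [ab, ac, hav]; module
    · -- b
      apply e5bas_all
      · refine e5bas_mk F₀ w _ 0 0 1 0 m0 m0 m1 m0 ?_
        show (g : Matrix ι ι F) *ᵥ v = (0 : F) • v + (0 : F) • ((c : Matrix ι ι F) *ᵥ v) + (1 : F) • ((g : Matrix ι ι F) *ᵥ v) + (0 : F) • _
        module
      · refine e5bas_mk F₀ w _ 0 0 0 1 m0 m0 m0 m1 ?_
        show (g : Matrix ι ι F) *ᵥ ((c : Matrix ι ι F) *ᵥ v) = (0 : F) • v + (0 : F) • ((c : Matrix ι ι F) *ᵥ v) + (0 : F) • ((g : Matrix ι ι F) *ᵥ v) + (1 : F) • ((g : Matrix ι ι F) *ᵥ ((c : Matrix ι ι F) *ᵥ v))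
        module
      · refine e5bas_mk F₀ w _ ε 0 0 0 hε m0 m0 m0 ?_
        show (g : Matrix ι ι F) *ᵥ ((g : Matrix ι ι F) *ᵥ v) = ε • v + (0 : F) • ((c : Matrix ι ι F) *ᵥ v) + (0 : F) • ((g : Matrix ι ι F) *ᵥ v) + (0 : F) • ((g : Matrix ι ι F) *ᵥ ((c : Matrix ι ι F) *ᵥ v))
        rw [bb]; module
      · refine e5bas_mk F₀ w _ 0 ε 0 0 m0 hε m0 m0 ?_
        show (g : Matrix ι ι F) *ᵥ ((g : Matrix ι ι F) *ᵥ ((c : Matrix ι ι F) *ᵥ v)) = (0 : F) • v + ε • ((c : Matrix ι ι F) *ᵥ v) + (0 : F) • ((g : Matrix ι ι F) *ᵥ v) + (0 : F) • ((g : Matrix ι ι F) *ᵥ ((c : Matrix ι ι F) *ᵥ v))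
        rw [bb]; module
    · -- c
      apply e5bas_all
      · refine e5bas_mk F₀ w _ 0 1 0 0 m0 m1 m0 m0 ?_
        show (g : Matrix ι ι F) *ᵥ v = (0 : F) • v + (1 : F) • ((g : Matrix ι ι F) *ᵥ v) + (0 : F) • ((b : Matrix ι ι F) *ᵥ v) + (0 : F) • ((b : Matrix ι ι F) *ᵥ ((g : Matrix ι ι F) *ᵥ v))
        module
      · refine e5bas_mk F₀ w _ (-1) 0 0 0 mn1 m0 m0 m0 ?_
        show (g : Matrix ι ι F) *ᵥ ((g : Matrix ι ι F) *ᵥ v) = (-1 : F) • v + (0 : F) • ((g : Matrix ι ι F) *ᵥ v) + (0 : F) • ((b : Matrix ι ι F) *ᵥ v) + (0 : F) • ((b : Matrix ι ι F) *ᵥ ((g : Matrix ι ι F) *ᵥ v))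
        rw [cc]; module
      · refine e5bas_mk F₀ w _ 0 0 0 1 m0 m0 m0 m1 ?_
        show (g : Matrix ι ι F) *ᵥ ((b : Matrix ι ι F) *ᵥ v) = (0 : F) • v + (0 : F) • ((g : Matrix ι ι F) *ᵥ v) + (0 : F) • ((b : Matrix ι ι F) *ᵥ v) + (1 : F) • ((b : Matrix ι ι F) *ᵥ ((g : Matrix ι ι F) *ᵥ v))
        rw [bc]; module
      · refine e5bas_mk F₀ w _ 0 0 (-1) 0 m0 m0 mn1 m0 ?_
        show (g : Matrix ι ι F) *ᵥ ((b : Matrix ι ι F) *ᵥ ((g : Matrix ι ι F) *ᵥ v)) = (0 : F) • v + (0 : F) • ((g : Matrix ι ι F) *ᵥ v) + (-1 : F) • ((b : Matrix ι ι F) *ᵥ v) + (0 : F) • ((b : Matrix ι ι F) *ᵥ ((g : Matrix ι ι F) *ᵥ v))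
        rw [← bc ((g : Matrix ι ι F) *ᵥ v), cc, Matrix.mulVec_neg]; module
    · -- d
      apply e5bas_all
      · refine e5bas_mk F₀ w _ β⁻¹ (-(β⁻¹ * α)) 0 0 mb mba m0 m0 ?_
        show (g : Matrix ι ι F) *ᵥ v = β⁻¹ • v + (-(β⁻¹ * α)) • ((c : Matrix ι ι F) *ᵥ v) + (0 : F) • ((b : Matrix ι ι F) *ᵥ v) + (0 : F) • ((b : Matrix ι ι F) *ᵥ ((c : Matrix ι ι F) *ᵥ v))
        rw [hdv]; module
      · refine e5bas_mk F₀ w _ (-(β⁻¹ * α)) (-β⁻¹) 0 0 mba mnb m0 m0 ?_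
        show (g : Matrix ι ι F) *ᵥ ((c : Matrix ι ι F) *ᵥ v) = (-(β⁻¹ * α)) • v + (-β⁻¹) • ((c : Matrix ι ι F) *ᵥ v) + (0 : F) • ((b : Matrix ι ι F) *ᵥ v) + (0 : F) • ((b : Matrix ι ι F) *ᵥ ((c : Matrix ι ι F) *ᵥ v))
        rw [hdc]; module
      · refine e5bas_mk F₀ w _ 0 0 β⁻¹ (-(β⁻¹ * α)) m0 m0 mb mba ?_
        show (g : Matrix ι ι F) *ᵥ ((b : Matrix ι ι F) *ᵥ v) = (0 : F) • v + (0 : F) • ((c : Matrix ι ι F) *ᵥ v) + β⁻¹ • ((b : Matrix ι ι F) *ᵥ v) + (-(β⁻¹ * α)) • ((b : Matrix ι ι F) *ᵥ ((c : Matrix ι ι F) *ᵥ v))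
        rw [← bd, hdv, Matrix.mulVec_add, Matrix.mulVec_smul, Matrix.mulVec_smul]; module
      · refine e5bas_mk F₀ w _ 0 0 (-(β⁻¹ * α)) (-β⁻¹) m0 m0 mba mnb ?_
        show (g : Matrix ι ι F) *ᵥ ((b : Matrix ι ι F) *ᵥ ((c : Matrix ι ι F) *ᵥ v)) = (0 : F) • v + (0 : F) • ((c : Matrix ι ι F) *ᵥ v) + (-(β⁻¹ * α)) • ((b : Matrix ι ι F) *ᵥ v) + (-β⁻¹) • ((b : Matrix ι ι F) *ᵥ ((c : Matrix ι ι F) *ᵥ v))
        rw [← bd, hdc, Matrix.mulVec_add, Matrix.mulVec_smul, Matrix.mulVec_smul]; module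
    · -- -1
      have hneg : ∀ u : ι → F, (((-1 : GL ι F)) : Matrix ι ι F) *ᵥ u = -u := by
        intro u
        rw [Units.val_neg, Units.val_one, Matrix.neg_mulVec, Matrix.one_mulVec]
      apply e5bas_all
      · refine e5bas_mk F₀ w _ (-1) 0 0 0 mn1 m0 m0 m0 ?_
        rw [hneg]; module
      · refine e5bas_mk F₀ w _ 0 (-1) 0 0 m0 mn1 m0 m0 ?_
        rw [hneg]; module
      · refine e5bas_mk F₀ w _ 0 0 (-1) 0 m0 m0 mn1 m0 ?_
        rw [hneg]; module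
      · refine e5bas_mk F₀ w _ 0 0 0 (-1) m0 m0 m0 mn1 ?_
        rw [hneg]; module
  · intro g hg
    rcases hg with rfl | rfl | rfl | rfl | rfl
    · exact e5bas_inv _ (Or.inl ha)
    · exact e5bas_inv _ hb
    · exact e5bas_inv _ (Or.inr hc)
    · exact e5bas_inv _ (Or.inr hd)
    · exact e5bas_inv _ (Or.inl (by rw [neg_mul_neg, one_mul]))

end Cfsg.Agent.Lib.Helper99.SP4O
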