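import Cfsg.Agent.Lib.Helper99.SP4O.E5ANTI

/-! Ladder ASP4O, rung E5CHAR (helper62). -/

set_option autoImplicit false

namespace Cfsg.Agent.Lib.Helper99.SP4O

open Cfsg Cfsg.Geo
open Cfsg.Agent.Lib.Helper80.AS
open Cfsg.Agent.Lib.Helper77.Asch (NormBy MinOver)
open scoped MatrixGroups Matrix Kronecker

variable {ι : Type} [Fintype ι] [DecidableEq ι] {F : Type*} [Field F]

/-- the automorphism `g ↦ g` or `g b` of a group in which everything commutes or anticommutes with `b`, `b² = z`. -/
theorem e5char_aux {G : Type*} [Group G] [Finite G] (z b : G) (hz : ∀ g, z * g = g * z) (hz1 : z ≠ 1)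
    (hbb : b * b = z) (hzz : z * z = 1) (hcomm : ∀ g, g * b = b * g ∨ g * b = z * (b * g)) :
    ∃ φ : G ≃* G, ∀ g, g * b ≠ b * g → φ g = g * b := by
  classical
  have L5 : ∀ g, g * b = z * (b * g) → g * b ≠ b * g := by
    intro g h1 h2
    apply hz1
    rw [h2] at h1
    have : 1 * (b * g) = z * (b * g) := by rw [one_mul]; exact h1
    exact (mul_right_cancel this).symm
  have L1 : ∀ g h, g * b = b * g → h * b = b * h → (g * h) * b = b * (g * h) := by
    intro g h hg hh
    rw [mul_assoc, hh, ← mul_assoc, hg, mul_assoc]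
  have L2 : ∀ g h, g * b = b * g → h * b = z * (b * h) → (g * h) * b = z * (b * (g * h)) := by
    intro g h hg hh
    calc (g * h) * b = g * (h * b) := mul_assoc _ _ _
      _ = g * (z * (b * h)) := by rw [hh]
      _ = (g * z) * (b * h) := by rw [mul_assoc]
      _ = (z * g) * (b * h) := by rw [hz g]
      _ = z * ((g * b) * h) := by simp only [mul_assoc]
      _ = z * (b * (g * h)) := by rw [hg, mul_assoc]
  have L3 : ∀ g h, g * b = z * (b * g) → h * b = b * h → (g * h) * b = z * (b * (g * h)) := by
    intro g h hg hh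
    calc (g * h) * b = g * (h * b) := mul_assoc _ _ _
      _ = (g * b) * h := by rw [hh, mul_assoc]
      _ = z * (b * (g * h)) := by rw [hg]; simp only [mul_assoc]
  have L4 : ∀ g h, g * b = z * (b * g) → h * b = z * (b * h) → (g * h) * b = b * (g * h) := by
    intro g h hg hh
    calc (g * h) * b = g * (h * b) := mul_assoc _ _ _
      _ = g * (z * (b * h)) := by rw [hh]
      _ = (g * z) * (b * h) := by rw [mul_assoc]
      _ = (z * g) * (b * h) := by rw [hz g]
      _ = z * ((g * b) * h) := by simp only [mul_assoc]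
      _ = (z * z) * (b * (g * h)) := by rw [hg]; simp only [mul_assoc]
      _ = b * (g * h) := by rw [hzz, one_mul]
  let φ : G → G := fun g => if g * b = b * g then g else g * b
  have hmul : ∀ g h, φ (g * h) = φ g * φ h := by
    intro g h
    rcases hcomm g with hg | hg <;> rcases hcomm h with hh | hh
    · simp only [φ, if_pos hg, if_pos hh, if_pos (L1 g h hg hh)]
    · simp only [φ, if_pos hg, if_neg (L5 h hh), if_neg (L5 _ (L2 g h hg hh)), mul_assoc]
    · simp only [φ, if_neg (L5 g hg), if_pos hh, if_neg (L5 _ (L3 g h hg hh))]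
      rw [mul_assoc, hh, mul_assoc]
    · simp only [φ, if_neg (L5 g hg), if_neg (L5 h hh), if_pos (L4 g h hg hh)]
      symm
      calc (g * b) * (h * b) = (g * b) * (z * (b * h)) := by rw [hh]
        _ = g * ((b * z) * (b * h)) := by simp only [mul_assoc]
        _ = g * ((z * b) * (b * h)) := by rw [hz b]
        _ = g * (z * ((b * b) * h)) := by simp only [mul_assoc]
        _ = g * ((z * z) * h) := by rw [hbb, mul_assoc]
        _ = g * h := by rw [hzz, one_mul]
  let Φ : G →* G := MonoidHom.mk' φ hmul
  have hinj : Function.Injective Φ := by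
    rw [injective_iff_map_eq_one]
    intro g hg
    change φ g = 1 at hg
    by_cases hc : g * b = b * g
    · simpa only [φ, if_pos hc] using hg
    · exfalso
      simp only [φ, if_neg hc] at hg
      apply hc
      rw [hg, mul_eq_one_comm.1 hg]
  refine ⟨MulEquiv.ofBijective Φ (Finite.injective_iff_bijective.1 hinj), fun g hg => ?_⟩
  change φ g = g * b
  simp only [φ, if_neg hg]

theorem ex5_char [Fintype F] (h2 : (2 : F) ≠ 0) (hcard : Fintype.card ι = 4) (f : (ι → F) → (ι → F) → F)
    (hf : IsSymplecticForm f) (R : Subgroup (GL ι F)) (hR : IsEx5 f R)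
    (A : Subgroup R) (hA : A.Characteristic) (hc : IsMulCommutative A) : IsCyclic A := by
  haveI : Nonempty ι := Fintype.card_pos_iff.1 (by omega)
  have hneg : (-1 : GL ι F) ≠ 1 := by
    intro h
    obtain ⟨i⟩ := ‹Nonempty ι›
    have h3 := congrFun (congrFun (congrArg (fun g : GL ι F => (g : Matrix ι ι F)) h) i) i
    simp only [Units.val_neg, Units.val_one, Matrix.neg_apply, Matrix.one_apply_eq] at h3
    apply h2
    linear_combination -h3
  have claim : ∀ a ∈ A, ((a : R) : GL ι F) = 1 ∨ ((a : R) : GL ι F) = -1 := by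
    intro a haA
    by_contra hcon
    push Not at hcon
    obtain ⟨b, hb, hab, hbb⟩ := ex5_anti h2 hcard f hf R hR (a : GL ι F) a.2 hcon.1 hcon.2
    obtain ⟨φ, hφ⟩ := e5char_aux (G := R) ⟨-1, hR.neg⟩ ⟨b, hb⟩
      (fun g => Subtype.ext (by simp))
      (fun h => hneg (congrArg Subtype.val h))
      (Subtype.ext hbb)
      (Subtype.ext (by simp))
      (fun g => by
        rcases hR.comm g g.2 b hb with h | h
        · exact Or.inl (Subtype.ext h)
        · exact Or.inr (Subtype.ext (by simpa using h)))
    have hne : a * ⟨b, hb⟩ ≠ ⟨b, hb⟩ * a := by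
      intro h
      have h' : (a : GL ι F) * b = b * a := congrArg Subtype.val h
      rw [h'] at hab
      apply hneg
      have h4 : (1 : GL ι F) * (b * a) = (-1) * (b * a) := by
        rw [one_mul, neg_one_mul]
        exact hab
      exact (mul_right_cancel h4).symm
    have hφa : φ a ∈ A := (Subgroup.characteristic_iff_le_comap.1 hA φ) haA
    rw [hφ a hne] at hφa
    have h5 := hc.is_comm.comm (⟨a, haA⟩ : A) ⟨_, hφa⟩
    have h6 : a * (a * ⟨b, hb⟩) = (a * ⟨b, hb⟩) * a := congrArg Subtype.val h5
    apply hne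
    rw [mul_assoc] at h6
    exact mul_left_cancel h6
  by_cases hz : ∃ z ∈ A, ((z : R) : GL ι F) = -1
  · obtain ⟨z, hzA, hz⟩ := hz
    refine ⟨⟨⟨z, hzA⟩, fun x => ?_⟩⟩
    rcases claim x x.2 with h | h
    · refine ⟨0, ?_⟩
      apply Subtype.ext
      apply Subtype.ext
      simp [h]
    · refine ⟨1, ?_⟩
      apply Subtype.ext
      apply Subtype.ext
      simp [h, hz]
  · haveI : Subsingleton A := by
      refine ⟨fun x y => ?_⟩
      have hx := (claim x x.2).resolve_right (fun h => hz ⟨x, x.2, h⟩)
      have hy := (claim y y.2).resolve_right (fun h => hz ⟨y, y.2, h⟩)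
      apply Subtype.ext
      apply Subtype.ext
      rw [hx, hy]
    exact isCyclic_of_subsingleton

end Cfsg.Agent.Lib.Helper99.SP4O
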