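import Cfsg.Agent.Lib.Helper99.SP4O.Defs

set_option autoImplicit false

namespace Cfsg.Agent.Lib.Helper99.SP4O

open Cfsg Cfsg.Geo
open Cfsg.Agent.Lib.Helper80.AS
open Cfsg.Agent.Lib.Helper77.Asch (NormBy MinOver)
open scoped MatrixGroups Matrix Kronecker

variable {ι : Type} [Fintype ι] [DecidableEq ι] {F : Type*} [Field F]

theorem e5exp_grp {G : Type*} [Group G] (x y : G) (hx : x * x = 1) (hy : y * y = 1)
    (hxy : (x * y) * (x * y) = 1) : x * y = y * x := by
  have h1 : x⁻¹ = x := inv_eq_of_mul_eq_one_left hx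
  have h2 : y⁻¹ = y := inv_eq_of_mul_eq_one_left hy
  have h3 : (x * y)⁻¹ = x * y := inv_eq_of_mul_eq_one_left hxy
  rw [mul_inv_rev, h1, h2] at h3
  exact h3.symm

/-- a group of scalar matrices is not irreducible in dimension 4 -/
theorem e5exp_not_comm (hcard : Fintype.card ι = 4) (R : Subgroup (GL ι F))
    (habs : ActsAbsolutelyIrreducibly (matrixSet R)) : ¬ ∀ x ∈ R, ∀ y ∈ R, x * y = y * x := by
  intro hcomm
  have hsc : ∀ s ∈ matrixSet R, ∃ c : F, s = c • (1 : Matrix ι ι F) := by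
    rintro s ⟨x, hx, rfl⟩
    apply habs.2
    rintro t ⟨y, hy, rfl⟩
    have := congrArg (fun u : GL ι F => (u : Matrix ι ι F)) (hcomm x hx y hy)
    simpa using this
  have hne : Nonempty ι := by
    rw [← Fintype.card_pos_iff, hcard]; norm_num
  obtain ⟨i⟩ := hne
  have hv : (Pi.single i 1 : ι → F) ≠ 0 := by
    intro h
    have := congrFun h i
    simp at this
  rcases habs.1 (Submodule.span F {(Pi.single i 1 : ι → F)}) (by
    intro s hs
    obtain ⟨c, rfl⟩ := hsc s hs
    rintro _ ⟨w, hw, rfl⟩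
    have : Matrix.toLin' (c • (1 : Matrix ι ι F)) w = c • w := by
      simp
    rw [this]
    exact Submodule.smul_mem _ c hw) with h | h
  · rw [Submodule.span_singleton_eq_bot] at h
    exact hv h
  · have h1 : Module.finrank F (Submodule.span F {(Pi.single i 1 : ι → F)}) = 1 :=
      finrank_span_singleton hv
    rw [h, finrank_top, Module.finrank_fintype_fun_eq_card, hcard] at h1
    norm_num at h1

/-- E5EXP. -/
theorem ex5_exp (h2 : (2 : F) ≠ 0) (hcard : Fintype.card ι = 4) (f : (ι → F) → (ι → F) → F)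
    (R : Subgroup (GL ι F)) (hR : IsEx5 f R) : IsPGroup 2 R ∧ Monoid.exponent R = 4 := by
  have h4 : ∀ x : R, x ^ 4 = 1 := by
    intro x
    apply Subtype.ext
    have : (x : GL ι F) ^ 4 = ((x : GL ι F) * x) * ((x : GL ι F) * x) := by
      rw [show (4 : ℕ) = 2 + 2 from rfl, pow_add, pow_two]
    rw [Subgroup.coe_pow, this]
    rcases hR.sq x x.2 with h | h <;> rw [h] <;> simp
  refine ⟨fun x => ⟨2, by simpa using h4 x⟩, ?_⟩
  have hdvd : Monoid.exponent R ∣ 4 := Monoid.exponent_dvd_of_forall_pow_eq_one h4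
  have hnd : ¬ Monoid.exponent R ∣ 2 := by
    intro hd
    have hsq : ∀ x : R, x * x = 1 := fun x => by
      obtain ⟨k, hk⟩ := hd
      rw [← pow_two, hk, pow_mul, Monoid.pow_exponent_eq_one, one_pow]
    apply e5exp_not_comm hcard R hR.abs
    intro x hx y hy
    have hx' : x * x = 1 := congrArg Subtype.val (hsq ⟨x, hx⟩)
    have hy' : y * y = 1 := congrArg Subtype.val (hsq ⟨y, hy⟩)
    have hxy' : (x * y) * (x * y) = 1 := congrArg Subtype.val (hsq ⟨x * y, R.mul_mem hx hy⟩)
    exact e5exp_grp x y hx' hy' hxy'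
  have hmem : Monoid.exponent R ∈ Nat.divisors 4 := Nat.mem_divisors.mpr ⟨hdvd, by norm_num⟩
  have hdiv : Nat.divisors 4 = {1, 2, 4} := by decide
  rw [hdiv] at hmem
  simp only [Finset.mem_insert, Finset.mem_singleton] at hmem
  rcases hmem with h | h | h
  · exact absurd (by rw [h]; exact one_dvd 2) hnd
  · exact absurd (by rw [h]) hnd
  · exact h

end Cfsg.Agent.Lib.Helper99.SP4O
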