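import Cfsg.Agent.Lib.Helper80.AS.EVENW

set_option autoImplicit false

namespace Cfsg.Agent.Lib.Helper99.SP4O

open Cfsg Cfsg.Geo
open Cfsg.Agent.Lib.Helper80.AS
open scoped MatrixGroups Matrix Kronecker

variable {ι : Type} [Fintype ι] [DecidableEq ι] {F : Type*} [Field F]

/-- eigenspace of the matrix `y` for the eigenvalue `c`. -/
def minusE (y : Matrix ι ι F) (c : F) : Submodule F (ι → F) where
  carrier := {v | y *ᵥ v = c • v}
  add_mem' {a b} ha hb := by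
    simp only [Set.mem_setOf_eq] at *
    rw [Matrix.mulVec_add, ha, hb, smul_add]
  zero_mem' := by simp
  smul_mem' t v hv := by
    simp only [Set.mem_setOf_eq] at *
    rw [Matrix.mulVec_smul, hv, smul_comm]

theorem minus_ext (x y : Matrix ι ι F) (h : ∀ v, x *ᵥ v = y *ᵥ v) : x = y := by
  ext i j
  have := congrFun (h (Pi.single j 1)) i
  simpa [Matrix.mulVec_single_one] using this

theorem minus_orth (h2 : (2 : F) ≠ 0) (f : (ι → F) → (ι → F) → F) (hf : IsSymplecticForm f)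
    (y : Matrix ι ι F) (hiso : ∀ u v, f (y *ᵥ u) (y *ᵥ v) = f u v) (c : F) (hc : c * c = 1)
    (u w : ι → F) (hu : y *ᵥ u = c • u) (hw : y *ᵥ w = (-c) • w) : f u w = 0 := by
  have h := hiso u w
  rw [hu, hw, hf.bilinear.smul_left, hf.bilinear.smul_right] at h
  have h3 : (2 : F) * f u w = 0 := by
    have h4 : c * (-c * f u w) = - f u w := by
      calc c * (-c * f u w) = -(c * c) * f u w := by ring
        _ = - f u w := by rw [hc]; ring
    rw [h4] at h
    linear_combination -h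
  exact (mul_eq_zero.mp h3).resolve_left h2

theorem minus_part (y : Matrix ι ι F) (hy : y * y = 1) (c : F) (hc : c * c = 1)
    (W : Submodule F (ι → F)) (hyW : ∀ w ∈ W, y *ᵥ w ∈ W) (x : ι → F) (hx : x ∈ W) :
    (2 : F)⁻¹ • (x + c • (y *ᵥ x)) ∈ W ⊓ minusE y c := by
  refine ⟨W.smul_mem _ (W.add_mem hx (W.smul_mem _ (hyW x hx))), ?_⟩
  change y *ᵥ _ = c • _
  rw [Matrix.mulVec_smul, Matrix.mulVec_add, Matrix.mulVec_smul, Matrix.mulVec_mulVec, hy,
    Matrix.one_mulVec, smul_comm c, smul_add c, smul_smul c c, hc, one_smul, add_comm]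

theorem minus_sum (h2 : (2 : F) ≠ 0) (y : Matrix ι ι F) (c : F) (x : ι → F) :
    x = (2 : F)⁻¹ • (x + c • (y *ᵥ x)) + (2 : F)⁻¹ • (x + (-c) • (y *ᵥ x)) := by
  rw [← smul_add]
  have h : x + c • (y *ᵥ x) + (x + (-c) • (y *ᵥ x)) = (2 : F) • x := by
    rw [neg_smul, two_smul]; abel
  rw [h, smul_smul, inv_mul_cancel₀ h2, one_smul]

theorem minus_nondeg (h2 : (2 : F) ≠ 0) (f : (ι → F) → (ι → F) → F) (hf : IsSymplecticForm f)
    (y : Matrix ι ι F) (hy : y * y = 1) (hiso : ∀ u v, f (y *ᵥ u) (y *ᵥ v) = f u v)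
    (W : Submodule F (ι → F)) (hW : IsNondegenerateOn f W) (hyW : ∀ w ∈ W, y *ᵥ w ∈ W)
    (c : F) (hc : c * c = 1) : IsNondegenerateOn f (W ⊓ minusE y c) := by
  intro w hw hw0
  obtain ⟨⟨x, hxW, hx⟩, _⟩ := hW w hw.1 hw0
  have hp := minus_part y hy c hc W hyW x hxW
  have hm := minus_part y hy (-c) (by rw [neg_mul_neg, hc]) W hyW x hxW
  have h0 : f ((2 : F)⁻¹ • (x + (-c) • (y *ᵥ x))) w = 0 := by
    rw [hf.skew, minus_orth h2 f hf y hiso c hc w _ hw.2 hm.2, neg_zero]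
  have h1 : f ((2 : F)⁻¹ • (x + c • (y *ᵥ x))) w ≠ 0 := by
    intro h
    apply hx
    rw [minus_sum h2 y c x, hf.bilinear.add_left, h, h0, add_zero]
  exact ⟨⟨_, hp, h1⟩, ⟨_, hp, by rw [hf.skew]; exact neg_ne_zero.mpr h1⟩⟩

theorem minus_split (h2 : (2 : F) ≠ 0) (f : (ι → F) → (ι → F) → F) (hf : IsSymplecticForm f)
    (y : Matrix ι ι F) (hy : y * y = 1) (hiso : ∀ u v, f (y *ᵥ u) (y *ᵥ v) = f u v)
    (W : Submodule F (ι → F)) (hW : IsNondegenerateOn f W) (hyW : ∀ w ∈ W, y *ᵥ w ∈ W) :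
    Even (Module.finrank F ↥(W ⊓ minusE y 1)) ∧ Even (Module.finrank F ↥(W ⊓ minusE y (-1))) ∧
      Module.finrank F ↥(W ⊓ minusE y 1) + Module.finrank F ↥(W ⊓ minusE y (-1))
        = Module.finrank F W := by
  refine ⟨even_finrank_of_nondeg f hf _ (minus_nondeg h2 f hf y hy hiso W hW hyW 1 (by ring)),
    even_finrank_of_nondeg f hf _ (minus_nondeg h2 f hf y hy hiso W hW hyW (-1) (by ring)), ?_⟩
  have hsup : (W ⊓ minusE y 1) ⊔ (W ⊓ minusE y (-1)) = W := by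
    apply le_antisymm (sup_le inf_le_left inf_le_left)
    intro x hx
    rw [minus_sum h2 y 1 x]
    exact Submodule.add_mem_sup (minus_part y hy 1 (by ring) W hyW x hx)
      (minus_part y hy (-1) (by ring) W hyW x hx)
  have hinf : (W ⊓ minusE y 1) ⊓ (W ⊓ minusE y (-1)) = ⊥ := by
    rw [eq_bot_iff]
    intro v hv
    have h1 : y *ᵥ v = (1 : F) • v := hv.1.2
    have h3 : y *ᵥ v = (-1 : F) • v := hv.2.2
    rw [h1, one_smul, neg_smul, one_smul] at h3
    have h4 : (2 : F) • v = 0 := by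
      rw [two_smul]
      nth_rewrite 1 [h3]
      simp
    rw [Submodule.mem_bot]
    exact (smul_eq_zero.mp h4).resolve_left h2
  have h := Submodule.finrank_sup_add_finrank_inf_eq (W ⊓ minusE y 1) (W ⊓ minusE y (-1))
  rw [hsup, hinf, finrank_bot, add_zero] at h
  exact h.symm

theorem minus_restrict (h2 : (2 : F) ≠ 0) (f : (ι → F) → (ι → F) → F) (hf : IsSymplecticForm f)
    (y : Matrix ι ι F) (hy : y * y = 1) (hiso : ∀ u v, f (y *ᵥ u) (y *ᵥ v) = f u v)
    (W : Submodule F (ι → F)) (hW : IsNondegenerateOn f W) (hyW : ∀ w ∈ W, y *ᵥ w ∈ W)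
    (hdim : Module.finrank F W = 2) :
    (∀ w ∈ W, y *ᵥ w = w) ∨ (∀ w ∈ W, y *ᵥ w = -w) := by
  obtain ⟨⟨k, hk⟩, ⟨l, hl⟩, hs⟩ := minus_split h2 f hf y hy hiso W hW hyW
  rw [hdim] at hs
  have hcase : Module.finrank F ↥(W ⊓ minusE y 1) = 2 ∨ Module.finrank F ↥(W ⊓ minusE y (-1)) = 2 := by
    omega
  rcases hcase with h | h
  · left
    have he : W ⊓ minusE y 1 = W := Submodule.eq_of_le_of_finrank_eq inf_le_left (by rw [h, hdim])
    intro w hw
    rw [← he] at hw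
    have h1 : y *ᵥ w = (1 : F) • w := hw.2
    rw [h1, one_smul]
  · right
    have he : W ⊓ minusE y (-1) = W := Submodule.eq_of_le_of_finrank_eq inf_le_left (by rw [h, hdim])
    intro w hw
    rw [← he] at hw
    have h1 : y *ᵥ w = (-1 : F) • w := hw.2
    rw [h1, neg_smul, one_smul]

theorem minus_key (h2 : (2 : F) ≠ 0) (hcard : Fintype.card ι = 4) (f : (ι → F) → (ι → F) → F)
    (hf : IsSymplecticForm f) (x y : Matrix ι ι F) (hx : x * x = 1) (hy : y * y = 1)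
    (hxy : x * y = y * x) (hxi : ∀ u v, f (x *ᵥ u) (x *ᵥ v) = f u v)
    (hyi : ∀ u v, f (y *ᵥ u) (y *ᵥ v) = f u v) (hx1 : x ≠ 1) (hx2 : x ≠ -1) :
    y = 1 ∨ y = -1 ∨ y = x ∨ y = -x := by
  have htop : IsNondegenerateOn f (⊤ : Submodule F (ι → F)) := by
    intro w _ hw
    obtain ⟨⟨a, ha⟩, ⟨b, hb⟩⟩ := hf.nondegenerate w hw
    exact ⟨⟨a, trivial, ha⟩, ⟨b, trivial, hb⟩⟩
  have hxT : ∀ w ∈ (⊤ : Submodule F (ι → F)), x *ᵥ w ∈ (⊤ : Submodule F (ι → F)) := fun _ _ => trivial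
  obtain ⟨⟨k, hk⟩, ⟨l, hl⟩, hs⟩ := minus_split h2 f hf x hx hxi ⊤ htop hxT
  have hV : Module.finrank F (ι → F) = 4 := by rw [Module.finrank_fintype_fun_eq_card, hcard]
  rw [finrank_top, hV] at hs
  have hne1 : Module.finrank F ↥((⊤ : Submodule F (ι → F)) ⊓ minusE x 1) ≠ 4 := by
    intro h
    apply hx1
    have he : (⊤ : Submodule F (ι → F)) ⊓ minusE x 1 = ⊤ :=
      Submodule.eq_top_of_finrank_eq (by rw [h, hV])
    apply minus_ext
    intro v
    have hv : v ∈ (⊤ : Submodule F (ι → F)) ⊓ minusE x 1 := by rw [he]; trivial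
    have h1 : x *ᵥ v = (1 : F) • v := hv.2
    rw [h1, one_smul, Matrix.one_mulVec]
  have hne2 : Module.finrank F ↥((⊤ : Submodule F (ι → F)) ⊓ minusE x (-1)) ≠ 4 := by
    intro h
    apply hx2
    have he : (⊤ : Submodule F (ι → F)) ⊓ minusE x (-1) = ⊤ :=
      Submodule.eq_top_of_finrank_eq (by rw [h, hV])
    apply minus_ext
    intro v
    have hv : v ∈ (⊤ : Submodule F (ι → F)) ⊓ minusE x (-1) := by rw [he]; trivial
    have h1 : x *ᵥ v = (-1 : F) • v := hv.2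
    rw [h1, neg_smul, one_smul, Matrix.neg_mulVec, Matrix.one_mulVec]
  have hd1 : Module.finrank F ↥((⊤ : Submodule F (ι → F)) ⊓ minusE x 1) = 2 := by omega
  have hd2 : Module.finrank F ↥((⊤ : Submodule F (ι → F)) ⊓ minusE x (-1)) = 2 := by omega
  have hinv : ∀ c : F, ∀ w ∈ (⊤ : Submodule F (ι → F)) ⊓ minusE x c,
      y *ᵥ w ∈ (⊤ : Submodule F (ι → F)) ⊓ minusE x c := by
    intro c w hw
    refine ⟨trivial, ?_⟩
    have h1 : x *ᵥ w = c • w := hw.2
    change x *ᵥ (y *ᵥ w) = c • (y *ᵥ w)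
    rw [Matrix.mulVec_mulVec, hxy, ← Matrix.mulVec_mulVec, h1, Matrix.mulVec_smul]
  have r1 := minus_restrict h2 f hf y hy hyi _
    (minus_nondeg h2 f hf x hx hxi ⊤ htop hxT 1 (by ring)) (hinv 1) hd1
  have r2 := minus_restrict h2 f hf y hy hyi _
    (minus_nondeg h2 f hf x hx hxi ⊤ htop hxT (-1) (by ring)) (hinv (-1)) hd2
  have hP : ∀ v : ι → F, (2 : F)⁻¹ • (v + (1 : F) • (x *ᵥ v)) ∈ (⊤ : Submodule F (ι → F)) ⊓ minusE x 1 :=
    fun v => minus_part x hx 1 (by ring) ⊤ hxT v trivial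
  have hN : ∀ v : ι → F, (2 : F)⁻¹ • (v + (-1 : F) • (x *ᵥ v)) ∈ (⊤ : Submodule F (ι → F)) ⊓ minusE x (-1) :=
    fun v => minus_part x hx (-1) (by ring) ⊤ hxT v trivial
  have hxP : ∀ v : ι → F, x *ᵥ ((2 : F)⁻¹ • (v + (1 : F) • (x *ᵥ v))) = (2 : F)⁻¹ • (v + (1 : F) • (x *ᵥ v)) := by
    intro v
    have h1 : x *ᵥ _ = (1 : F) • _ := (hP v).2
    rw [h1, one_smul]
  have hxN : ∀ v : ι → F, x *ᵥ ((2 : F)⁻¹ • (v + (-1 : F) • (x *ᵥ v))) = -((2 : F)⁻¹ • (v + (-1 : F) • (x *ᵥ v))) := by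
    intro v
    have h1 : x *ᵥ _ = (-1 : F) • _ := (hN v).2
    rw [h1, neg_smul, one_smul]
  rcases r1 with r1 | r1 <;> rcases r2 with r2 | r2
  · left
    apply minus_ext
    intro v
    rw [Matrix.one_mulVec]
    conv_lhs => rw [minus_sum h2 x 1 v]
    conv_rhs => rw [minus_sum h2 x 1 v]
    rw [Matrix.mulVec_add, r1 _ (hP v), r2 _ (hN v)]
  · right; right; left
    apply minus_ext
    intro v
    conv_lhs => rw [minus_sum h2 x 1 v]
    conv_rhs => rw [minus_sum h2 x 1 v]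
    rw [Matrix.mulVec_add, Matrix.mulVec_add, r1 _ (hP v), r2 _ (hN v), hxP, hxN]
  · right; right; right
    apply minus_ext
    intro v
    conv_lhs => rw [minus_sum h2 x 1 v]
    conv_rhs => rw [minus_sum h2 x 1 v]
    rw [Matrix.neg_mulVec, Matrix.mulVec_add, Matrix.mulVec_add, r1 _ (hP v), r2 _ (hN v), hxP, hxN]
    abel
  · right; left
    apply minus_ext
    intro v
    rw [Matrix.neg_mulVec, Matrix.one_mulVec]
    conv_lhs => rw [minus_sum h2 x 1 v]
    conv_rhs => rw [minus_sum h2 x 1 v]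
    rw [Matrix.mulVec_add, r1 _ (hP v), r2 _ (hN v)]
    abel

/-- MINUS. -/
theorem minus_type (h2 : (2 : F) ≠ 0) (hcard : Fintype.card ι = 4) (f : (ι → F) → (ι → F) → F)
    (hf : IsSymplecticForm f) (R : Subgroup (GL ι F)) (hR : FixesForm (matrixSet R) f) : IsOfMinusType 2 R := by
  classical
  intro A hcomm hsq
  obtain ⟨M, hMdef⟩ : ∃ M : A → Matrix ι ι F, ∀ a : A, M a = (((a : R) : GL ι F) : Matrix ι ι F) :=
    ⟨_, fun _ => rfl⟩
  have hM : ∀ a : A, M a * M a = 1 := by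
    intro a
    have h := hsq a.1 a.2
    have h' := congrArg (fun r : R => ((r : GL ι F) : Matrix ι ι F)) h
    rw [hMdef]
    simpa using h'
  have hI : ∀ a : A, ∀ u v, f (M a *ᵥ u) (M a *ᵥ v) = f u v := by
    intro a
    rw [hMdef]
    exact hR _ ⟨_, (a : R).2, rfl⟩
  have hC : ∀ a b : A, M a * M b = M b * M a := by
    intro a b
    have h := hcomm.is_comm.comm a b
    have h' := congrArg (fun r : A => (((r : R) : GL ι F) : Matrix ι ι F)) h
    rw [hMdef, hMdef]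
    simpa using h'
  have hinj : Function.Injective M := by
    intro a b h
    rw [hMdef, hMdef] at h
    exact Subtype.ext (Subtype.ext (Units.ext h))
  obtain ⟨X, hX⟩ : ∃ X : Matrix ι ι F, ∀ b : A, M b ∈ ({1, -1, X, -X} : Finset (Matrix ι ι F)) := by
    by_cases hex : ∃ a : A, M a ≠ 1 ∧ M a ≠ -1
    · obtain ⟨a, ha1, ha2⟩ := hex
      refine ⟨M a, fun b => ?_⟩
      have := minus_key h2 hcard f hf (M a) (M b) (hM a) (hM b) (hC a b) (hI a) (hI b) ha1 ha2
      simp only [Finset.mem_insert, Finset.mem_singleton]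
      exact this
    · push Not at hex
      refine ⟨1, fun b => ?_⟩
      simp only [Finset.mem_insert, Finset.mem_singleton]
      by_cases h1 : M b = 1
      · exact Or.inl h1
      · exact Or.inr (Or.inl (hex b h1))
  have hle : Nat.card A ≤ 4 := by
    calc Nat.card A ≤ Nat.card {m // m ∈ ({1, -1, X, -X} : Finset (Matrix ι ι F))} :=
          Nat.card_le_card_of_injective (fun a : A => (⟨M a, hX a⟩ : {m // m ∈ ({1, -1, X, -X} : Finset (Matrix ι ι F))}))
            (fun a b h => hinj (congrArg Subtype.val h))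
      _ = ({1, -1, X, -X} : Finset (Matrix ι ι F)).card := by
          rw [Nat.card_eq_fintype_card, Fintype.card_coe]
      _ ≤ 4 := Finset.card_le_four
  calc Nat.card A ≤ 4 := hle
    _ < 2 ^ (2 + 1) := by norm_num

end Cfsg.Agent.Lib.Helper99.SP4O
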