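import Cfsg.Agent.Lib.Helper99.SP4O.Defs
import Cfsg.Agent.Lib.Helper99.SP4O.E5CARD
import Cfsg.Agent.Lib.Helper99.SP4O.E5ANTI
import Cfsg.Agent.Lib.Helper99.SP4O.MINUS

/-! Ladder ASP4O, rung E5GEN (helper44): generators a, b, c, d of `R ≅ D8 o Q8`. -/

set_option autoImplicit false
set_option linter.unusedSimpArgs false
set_option linter.unusedSectionVars false
set_option linter.unusedVariables false

namespace Cfsg.Agent.Lib.Helper99.SP4O

section e5genabs
variable {G : Type*} [Group G] [HasDistribNeg G]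

theorem e5gen_an {g x : G} (h : g * x = -(x * g)) (r : G) : g * (x * r) = -(x * (g * r)) := by
  rw [← mul_assoc, h, neg_mul, mul_assoc]

theorem e5gen_ap {g x : G} (h : g * x = x * g) (r : G) : g * (x * r) = x * (g * r) := by
  rw [← mul_assoc, h, mul_assoc]

theorem e5gen_sq {x e : G} (h : x * x = e) (r : G) : x * (x * r) = e * r := by
  rw [← mul_assoc, h]

theorem e5gen_flip {x y : G} (h : x * y = -(y * x)) : y * x = -(x * y) := by
  rw [h, neg_neg]

theorem e5gen_reduce (R : Subgroup G) (comm : ∀ x ∈ R, ∀ y ∈ R, x * y = y * x ∨ x * y = -(y * x))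
    {x y : G} (hx : x ∈ R) (hy : y ∈ R) (hxy : x * y = -(y * x)) (g : G) (hg : g ∈ R) :
    ∃ w, (w = 1 ∨ w = x ∨ w = y ∨ w = x * y) ∧ (g * w) * x = x * (g * w) ∧
      (g * w) * y = y * (g * w) := by
  have hyx : y * x = -(x * y) := e5gen_flip hxy
  rcases comm g hg x hx with h1 | h1 <;> rcases comm g hg y hy with h2 | h2
  · exact ⟨1, Or.inl rfl, by simpa using h1, by simpa using h2⟩
  · refine ⟨x, Or.inr (Or.inl rfl), ?_, ?_⟩ <;>
    simp only [mul_assoc, h1, e5gen_ap h1, h2, e5gen_an h2, hyx, e5gen_an hyx, neg_mul, mul_neg, neg_neg]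
  · refine ⟨y, Or.inr (Or.inr (Or.inl rfl)), ?_, ?_⟩ <;>
    simp only [mul_assoc, h1, e5gen_an h1, h2, e5gen_ap h2, hyx, e5gen_an hyx, neg_mul, mul_neg, neg_neg]
  · refine ⟨x * y, Or.inr (Or.inr (Or.inr rfl)), ?_, ?_⟩ <;>
    simp only [mul_assoc, h1, e5gen_an h1, h2, e5gen_an h2, hyx, e5gen_an hyx, neg_mul, mul_neg, neg_neg]

theorem e5gen_w_mem (S : Subgroup G) {x y w : G} (hx : x ∈ S) (hy : y ∈ S)
    (hw : w = 1 ∨ w = x ∨ w = y ∨ w = x * y) : w ∈ S := by
  rcases hw with rfl | rfl | rfl | rfl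
  · exact S.one_mem
  · exact hx
  · exact hy
  · exact S.mul_mem hx hy

theorem e5gen_w_comm {x y w h : G} (hx : h * x = x * h) (hy : h * y = y * h)
    (hw : w = 1 ∨ w = x ∨ w = y ∨ w = x * y) : h * w = w * h := by
  rcases hw with rfl | rfl | rfl | rfl
  · simp
  · exact hx
  · exact hy
  · rw [← mul_assoc, hx, mul_assoc, hy, mul_assoc]

theorem e5gen_card_le [Finite G] (R : Subgroup G) {n : ℕ} (f : Fin n → G)
    (h : ∀ g ∈ R, ∃ i, f i = g) : Nat.card R ≤ n := by
  classical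
  have hs : Function.Surjective (fun i : {i : Fin n // f i ∈ R} => (⟨f i.1, i.2⟩ : R)) := by
    intro g
    obtain ⟨i, hi⟩ := h g.1 g.2
    exact ⟨⟨i, hi ▸ g.2⟩, Subtype.ext hi⟩
  calc Nat.card R ≤ Nat.card {i : Fin n // f i ∈ R} := Nat.card_le_card_of_surjective _ hs
    _ ≤ Nat.card (Fin n) := Nat.card_le_card_of_injective _ Subtype.val_injective
    _ = n := by simp

theorem e5gen_center (R : Subgroup G) (hne : (1 : G) ≠ -1) (hneg : (-1 : G) ∈ R)
    (hcen : Nat.card (Subgroup.center R) = 2)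
    {z : G} (hz : z ∈ R) (hc : ∀ y ∈ R, z * y = y * z) : z = 1 ∨ z = -1 := by
  by_contra hcon
  rw [not_or] at hcon
  have hz' : (⟨z, hz⟩ : R) ∈ Subgroup.center R := by
    rw [Subgroup.mem_center_iff]; intro y; exact Subtype.ext (hc y.1 y.2).symm
  have hn' : (⟨-1, hneg⟩ : R) ∈ Subgroup.center R := by
    rw [Subgroup.mem_center_iff]; intro y; exact Subtype.ext (by simp)
  obtain ⟨u, hu⟩ := (Nat.card_eq_two_iff' (1 : Subgroup.center R)).1 hcen
  have e1 := hu.2 ⟨⟨z, hz⟩, hz'⟩ (by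
    intro h; apply hcon.1; exact congrArg (fun t : Subgroup.center R => ((t : R) : G)) h)
  have e2 := hu.2 ⟨⟨-1, hneg⟩, hn'⟩ (by
    intro h; apply hne; exact (congrArg (fun t : Subgroup.center R => ((t : R) : G)) h).symm)
  apply hcon.2
  exact congrArg (fun t : Subgroup.center R => ((t : R) : G)) (e1.trans e2.symm)

theorem e5gen_ne {p t k : G} (hne : ∀ x : G, x ≠ -x) (hp : p * k = k * p) (ht : t * k = -(k * t)) :
    t ≠ p := by
  rintro rfl
  exact hne _ (hp.symm.trans ht)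

theorem e5gen_no8 [Finite G] (R : Subgroup G) (hne : ∀ x : G, x ≠ -x) (hneg : (-1 : G) ∈ R)
    (hm : ∀ A : Subgroup R, IsMulCommutative A → (∀ x ∈ A, x * x = 1) → Nat.card A < 2 ^ (2 + 1))
    {s t : G} (hs : s ∈ R) (ht : t ∈ R) (hs2 : s * s = 1) (ht2 : t * t = 1) (hst : s * t = t * s)
    (hs1 : s ≠ 1) (hs1' : s ≠ -1) (ht1 : t ≠ 1) (ht1' : t ≠ -1) (hts : t ≠ s) (hts' : t ≠ -s) :
    False := by
  classical
  have hcomm : ∀ x ∈ ({s, t, -1} : Set G), ∀ y ∈ ({s, t, -1} : Set G), x * y = y * x := by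
    rintro x (rfl | rfl | rfl) y (rfl | rfl | rfl) <;> simp [hst]
  have hSc : IsMulCommutative (Subgroup.closure ({s, t, -1} : Set G)) :=
    Subgroup.isMulCommutative_closure hcomm
  have hSR : Subgroup.closure ({s, t, -1} : Set G) ≤ R := by
    rw [Subgroup.closure_le]; rintro x (rfl | rfl | rfl) <;> assumption
  have hSe : ∀ x ∈ Subgroup.closure ({s, t, -1} : Set G), x * x = 1 := by
    intro x hx
    induction hx using Subgroup.closure_induction with
    | mem x hx => rcases hx with rfl | rfl | rfl <;> simp [hs2, ht2]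
    | one => simp
    | mul x y hx hy ihx ihy =>
      have h1 : y * x = x * y := setLike_mul_comm hy hx
      calc x * y * (x * y) = x * (y * x) * y := by group
        _ = (x * x) * (y * y) := by rw [h1]; group
        _ = 1 := by rw [ihx, ihy, one_mul]
    | inv x hx ih => rw [← mul_inv_rev, ih, inv_one]
  have hA := hm ((Subgroup.closure ({s, t, -1} : Set G)).subgroupOf R)
    (.of_setLike_mul_comm fun a ha b hb =>
      Subtype.ext (setLike_mul_comm (Subgroup.mem_subgroupOf.1 ha) (Subgroup.mem_subgroupOf.1 hb)))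
    (fun x hx => Subtype.ext (hSe x.1 (Subgroup.mem_subgroupOf.1 hx)))
  rw [Nat.card_congr (Subgroup.subgroupOfEquivOfLe hSR).toEquiv] at hA
  have hp : IsPGroup 2 (Subgroup.closure ({s, t, -1} : Set G)) := fun g =>
    ⟨1, Subtype.ext (by simpa [pow_two] using hSe g.1 g.2)⟩
  have : Fact (Nat.Prime 2) := ⟨Nat.prime_two⟩
  obtain ⟨n, hn⟩ := IsPGroup.iff_card.1 hp
  have hn3 : n < 3 := by
    rw [hn] at hA
    exact (Nat.pow_lt_pow_iff_right (by norm_num)).1 hA
  have h4 : Nat.card (Subgroup.closure ({s, t, -1} : Set G)) ≤ 4 := by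
    rw [hn]
    interval_cases n <;> norm_num
  have hT : ({1, -1, s, -s, t} : Finset G).card = 5 := by
    have f1 : (1 : G) ≠ -1 := hne 1
    have f2 : (1 : G) ≠ s := hs1.symm
    have f3 : (1 : G) ≠ -s := fun h => hs1' (by rw [h, neg_neg])
    have f4 : (1 : G) ≠ t := ht1.symm
    have f5 : (-1 : G) ≠ s := hs1'.symm
    have f6 : (-1 : G) ≠ -s := fun h => hs1 (neg_inj.1 h).symm
    have f7 : (-1 : G) ≠ t := ht1'.symm
    have f8 : s ≠ -s := hne s
    have f9 : s ≠ t := hts.symm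
    have f10 : -s ≠ t := hts'.symm
    rw [Finset.card_insert_of_notMem, Finset.card_insert_of_notMem, Finset.card_insert_of_notMem,
      Finset.card_insert_of_notMem, Finset.card_singleton]
    · simpa using f10
    · simp only [Finset.mem_insert, Finset.mem_singleton, not_or]; exact ⟨f8, f9⟩
    · simp only [Finset.mem_insert, Finset.mem_singleton, not_or]; exact ⟨f5, f6, f7⟩
    · simp only [Finset.mem_insert, Finset.mem_singleton, not_or]; exact ⟨f1, f2, f3, f4⟩
  have hsub : (({1, -1, s, -s, t} : Finset G) : Set G) ⊆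
      (Subgroup.closure ({s, t, -1} : Set G) : Set G) := by
    have ms : s ∈ Subgroup.closure ({s, t, -1} : Set G) := Subgroup.subset_closure (by simp)
    have mt : t ∈ Subgroup.closure ({s, t, -1} : Set G) := Subgroup.subset_closure (by simp)
    have mn : (-1 : G) ∈ Subgroup.closure ({s, t, -1} : Set G) := Subgroup.subset_closure (by simp)
    intro x hx
    simp only [Finset.coe_insert, Finset.coe_singleton, Set.mem_insert_iff, Set.mem_singleton_iff] at hx
    rcases hx with rfl | rfl | rfl | rfl | rfl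
    · exact Subgroup.one_mem _
    · exact mn
    · exact ms
    · have := Subgroup.mul_mem _ mn ms
      rwa [neg_one_mul] at this
    · exact mt
  have h5 : 5 ≤ Nat.card (Subgroup.closure ({s, t, -1} : Set G)) := by
    have := Set.ncard_le_ncard hsub (Set.toFinite _)
    rw [Set.ncard_coe_finset, hT] at this
    exact this.trans (le_of_eq (Nat.card_coe_set_eq _).symm)
  omega

theorem e5gen_K [Finite G] (R : Subgroup G) (hne : ∀ x : G, x ≠ -x) (hneg : (-1 : G) ∈ R)
    (sq : ∀ x ∈ R, x * x = 1 ∨ x * x = -1)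
    (hm : ∀ A : Subgroup R, IsMulCommutative A → (∀ x ∈ A, x * x = 1) → Nat.card A < 2 ^ (2 + 1))
    {a b c d z : G} (ha : a ∈ R) (hc : c ∈ R) (hz : z ∈ R)
    (ha2 : a * a = 1) (hc2 : c * c = -1) (hab : a * b = -(b * a)) (hcd : c * d = -(d * c))
    (hac : a * c = c * a) (had : a * d = d * a)
    (hza : z * a = a * z) (hzb : z * b = b * z) (hzc : z * c = c * z) (hzd : z * d = d * z) :
    z = 1 ∨ z = -1 := by
  by_contra hcon
  rw [not_or] at hcon
  have a1 : a ≠ 1 := e5gen_ne hne (by simp) hab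
  have a2 : a ≠ -1 := e5gen_ne hne (by simp) hab
  rcases sq z hz with h | h
  · refine e5gen_no8 R hne hneg hm ha hz ha2 h hza.symm a1 a2 hcon.1 hcon.2 ?_ ?_
    · exact fun e => (e5gen_ne hne hzb hab) e.symm
    · intro e
      have h3 : (-a) * b = -(b * (-a)) := by rw [neg_mul, mul_neg, hab]
      exact (e5gen_ne hne hzb h3) e.symm
  · have ht2 : (c * z) * (c * z) = 1 := by
      simp only [mul_assoc, hzc, e5gen_ap hzc, h, e5gen_sq h, hc2, e5gen_sq hc2, neg_mul, mul_neg,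
        neg_neg, one_mul, mul_one]
    have htd : (c * z) * d = -(d * (c * z)) := by
      simp only [mul_assoc, hzd, e5gen_ap hzd, hcd, e5gen_an hcd, neg_mul, mul_neg, neg_neg]
    have hat : a * (c * z) = (c * z) * a := by
      rw [← mul_assoc, hac, mul_assoc, ← hza, mul_assoc]
    exact e5gen_no8 R hne hneg hm ha (R.mul_mem hc hz) ha2 ht2 hat a1 a2
      (e5gen_ne hne (by simp) htd) (e5gen_ne hne (by simp) htd) (e5gen_ne hne had htd)
      (e5gen_ne hne (by rw [neg_mul, mul_neg, had]) htd)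

theorem e5gen_fin [Finite G] (R : Subgroup G) (hne : ∀ x : G, x ≠ -x) (hneg : (-1 : G) ∈ R)
    (sq : ∀ x ∈ R, x * x = 1 ∨ x * x = -1)
    (comm : ∀ x ∈ R, ∀ y ∈ R, x * y = y * x ∨ x * y = -(y * x))
    (hm : ∀ A : Subgroup R, IsMulCommutative A → (∀ x ∈ A, x * x = 1) → Nat.card A < 2 ^ (2 + 1))
    {a b c d : G} (ha : a ∈ R) (hb : b ∈ R) (hc : c ∈ R) (hd : d ∈ R) (ha2 : a * a = 1)
    (hc2 : c * c = -1) (hd2 : d * d = -1)
    (hab : a * b = -(b * a)) (hcd : c * d = -(d * c)) (hac : a * c = c * a) (had : a * d = d * a)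
    (hbc : b * c = c * b) (hbd : b * d = d * b) :
    ∃ a b c d : G, a * a = 1 ∧ (b * b = 1 ∨ b * b = -1) ∧ c * c = -1 ∧ d * d = -1 ∧ a * b = -(b * a) ∧
      c * d = -(d * c) ∧ a * c = c * a ∧ a * d = d * a ∧ b * c = c * b ∧ b * d = d * b ∧
      R ≤ Subgroup.closure {a, b, c, d, -1} := by
  refine ⟨a, b, c, d, ha2, sq b hb, hc2, hd2, hab, hcd, hac, had, hbc, hbd, ?_⟩
  intro g hg
  have ma : a ∈ Subgroup.closure ({a, b, c, d, -1} : Set G) := Subgroup.subset_closure (by simp)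
  have mb : b ∈ Subgroup.closure ({a, b, c, d, -1} : Set G) := Subgroup.subset_closure (by simp)
  have mc : c ∈ Subgroup.closure ({a, b, c, d, -1} : Set G) := Subgroup.subset_closure (by simp)
  have md : d ∈ Subgroup.closure ({a, b, c, d, -1} : Set G) := Subgroup.subset_closure (by simp)
  have mn : (-1 : G) ∈ Subgroup.closure ({a, b, c, d, -1} : Set G) :=
    Subgroup.subset_closure (by simp)
  obtain ⟨w1, hw1, e1, e2⟩ := e5gen_reduce R comm hc hd hcd g hg
  have hg1 : g * w1 ∈ R := R.mul_mem hg (e5gen_w_mem R hc hd hw1)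
  obtain ⟨w2, hw2, e3, e4⟩ := e5gen_reduce R comm ha hb hab (g * w1) hg1
  have hg2 : g * w1 * w2 ∈ R := R.mul_mem hg1 (e5gen_w_mem R ha hb hw2)
  have hcw2 : c * w2 = w2 * c := e5gen_w_comm hac.symm hbc.symm hw2
  have hdw2 : d * w2 = w2 * d := e5gen_w_comm had.symm hbd.symm hw2
  have e5 : (g * w1 * w2) * c = c * (g * w1 * w2) := by
    rw [mul_assoc, ← hcw2, ← mul_assoc, e1, mul_assoc]
  have e6 : (g * w1 * w2) * d = d * (g * w1 * w2) := by
    rw [mul_assoc, ← hdw2, ← mul_assoc, e2, mul_assoc]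
  have hz := e5gen_K R hne hneg sq hm ha hc hg2 ha2 hc2 hab hcd hac had e3 e4 e5 e6
  have hgg : g = (g * w1 * w2) * w2⁻¹ * w1⁻¹ := by group
  rw [hgg]
  refine Subgroup.mul_mem _ (Subgroup.mul_mem _ ?_ (Subgroup.inv_mem _ (e5gen_w_mem _ ma mb hw2)))
    (Subgroup.inv_mem _ (e5gen_w_mem _ mc md hw1))
  rcases hz with h | h <;> rw [h]
  · exact Subgroup.one_mem _
  · exact mn

theorem e5gen_main [Finite G] (R : Subgroup G) (hne : ∀ x : G, x ≠ -x) (hneg : (-1 : G) ∈ R)
    (sq : ∀ x ∈ R, x * x = 1 ∨ x * x = -1)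
    (comm : ∀ x ∈ R, ∀ y ∈ R, x * y = y * x ∨ x * y = -(y * x))
    (hcR : Nat.card R = 32) (hcen : Nat.card (Subgroup.center R) = 2)
    (hm : ∀ A : Subgroup R, IsMulCommutative A → (∀ x ∈ A, x * x = 1) → Nat.card A < 2 ^ (2 + 1))
    (hanti : ∀ a ∈ R, a ≠ 1 → a ≠ -1 → ∃ b ∈ R, a * b = -(b * a) ∧ b * b = -1) :
    ∃ a b c d : G, a * a = 1 ∧ (b * b = 1 ∨ b * b = -1) ∧ c * c = -1 ∧ d * d = -1 ∧ a * b = -(b * a) ∧
      c * d = -(d * c) ∧ a * c = c * a ∧ a * d = d * a ∧ b * c = c * b ∧ b * d = d * b ∧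
      R ≤ Subgroup.closure {a, b, c, d, -1} := by
  have h1 : ∃ x0 ∈ R, x0 ≠ 1 ∧ x0 ≠ -1 := by
    by_contra hcon
    push Not at hcon
    have := e5gen_card_le R ![1, -1] (fun g hg => by
      by_cases h : g = 1
      · exact ⟨0, by simp [h]⟩
      · exact ⟨1, by simp [hcon g hg h]⟩)
    omega
  obtain ⟨x0, hx0, hx01, hx02⟩ := h1
  obtain ⟨c, hc, -, hc2⟩ := hanti x0 hx0 hx01 hx02
  have hc1 : c ≠ 1 := by rintro rfl; exact hne 1 (by simpa using hc2)
  have hc1' : c ≠ -1 := by rintro rfl; exact hne 1 (by simpa using hc2)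
  obtain ⟨d, hd, hcd, hd2⟩ := hanti c hc hc1 hc1'
  have h4 : ∃ u ∈ R, u * c = c * u ∧ u * d = d * u ∧ u ≠ 1 ∧ u ≠ -1 := by
    by_contra hcon
    push Not at hcon
    have := e5gen_card_le R ![1, -1, c⁻¹, -c⁻¹, d⁻¹, -d⁻¹, (c * d)⁻¹, -(c * d)⁻¹] (fun g hg => by
      obtain ⟨w, hw, e1, e2⟩ := e5gen_reduce R comm hc hd hcd g hg
      have hgw : g * w ∈ R := R.mul_mem hg (e5gen_w_mem R hc hd hw)
      by_cases h : g * w = 1
      · have hg' : g = w⁻¹ := eq_inv_of_mul_eq_one_left h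
        rcases hw with rfl | rfl | rfl | rfl
        · exact ⟨0, by rw [hg', inv_one]; rfl⟩
        · exact ⟨2, hg'.symm⟩
        · exact ⟨4, hg'.symm⟩
        · exact ⟨6, hg'.symm⟩
      · have h' := hcon (g * w) hgw e1 e2 h
        have hg' : g = -w⁻¹ := by rw [eq_mul_inv_of_mul_eq h', neg_one_mul]
        rcases hw with rfl | rfl | rfl | rfl
        · exact ⟨1, by rw [hg', inv_one]; rfl⟩
        · exact ⟨3, hg'.symm⟩
        · exact ⟨5, hg'.symm⟩
        · exact ⟨7, hg'.symm⟩)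
    omega
  obtain ⟨u, hu, huc, hud, hu1, hu1'⟩ := h4
  have h5 : ∃ y ∈ R, u * y = -(y * u) := by
    by_contra hcon
    push Not at hcon
    rcases e5gen_center R (hne 1) hneg hcen hu
      (fun y hy => (comm u hu y hy).resolve_right (hcon y hy)) with h | h
    · exact hu1 h
    · exact hu1' h
  obtain ⟨y0, hy0, huy0⟩ := h5
  obtain ⟨w, hw, e1, e2⟩ := e5gen_reduce R comm hc hd hcd y0 hy0
  have hy : y0 * w ∈ R := R.mul_mem hy0 (e5gen_w_mem R hc hd hw)
  have huw : u * w = w * u := e5gen_w_comm huc hud hw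
  have huy : u * (y0 * w) = -((y0 * w) * u) := by
    rw [← mul_assoc, huy0, neg_mul, mul_assoc, huw, mul_assoc]
  generalize y0 * w = y at hy huy e1 e2
  rcases sq u hu with hu2 | hu2
  · exact e5gen_fin R hne hneg sq comm hm hu hy hc hd hu2 hc2 hd2 huy hcd huc hud e1 e2
  rcases sq y hy with hy2 | hy2
  · exact e5gen_fin R hne hneg sq comm hm hy hu hc hd hy2 hc2 hd2 (e5gen_flip huy) hcd e1 e2 huc hud
  · exfalso
    have hdc := e5gen_flip hcd
    have hyu := e5gen_flip huy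
    have hs2 : (c * u) * (c * u) = 1 := by
      simp only [mul_assoc, huc, e5gen_ap huc, hu2, e5gen_sq hu2, hc2, e5gen_sq hc2, neg_mul, mul_neg,
        neg_neg, one_mul, mul_one]
    have ht2 : (d * y) * (d * y) = 1 := by
      simp only [mul_assoc, e2, e5gen_ap e2, hy2, e5gen_sq hy2, hd2, e5gen_sq hd2, neg_mul, mul_neg,
        neg_neg, one_mul, mul_one]
    have hst : (c * u) * (d * y) = (d * y) * (c * u) := by
      simp only [mul_assoc, hdc, e5gen_an hdc, huc, e5gen_ap huc, hud, e5gen_ap hud, e1, e5gen_ap e1,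
        e2, e5gen_ap e2, hyu, e5gen_an hyu, neg_mul, mul_neg, neg_neg]
    have hsd : (c * u) * d = -(d * (c * u)) := by
      simp only [mul_assoc, hdc, e5gen_an hdc, huc, e5gen_ap huc, hud, e5gen_ap hud, e1, e5gen_ap e1,
        e2, e5gen_ap e2, hyu, e5gen_an hyu, neg_mul, mul_neg, neg_neg]
    have htc : (d * y) * c = -(c * (d * y)) := by
      simp only [mul_assoc, hdc, e5gen_an hdc, huc, e5gen_ap huc, hud, e5gen_ap hud, e1, e5gen_ap e1,
        e2, e5gen_ap e2, hyu, e5gen_an hyu, neg_mul, mul_neg, neg_neg]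
    have hsc : (c * u) * c = c * (c * u) := by
      simp only [mul_assoc, hdc, e5gen_an hdc, huc, e5gen_ap huc, hud, e5gen_ap hud, e1, e5gen_ap e1,
        e2, e5gen_ap e2, hyu, e5gen_an hyu, neg_mul, mul_neg, neg_neg]
    exact e5gen_no8 R hne hneg hm (R.mul_mem hc hu) (R.mul_mem hd hy) hs2 ht2 hst
      (e5gen_ne hne (by simp) hsd) (e5gen_ne hne (by simp) hsd) (e5gen_ne hne (by simp) htc)
      (e5gen_ne hne (by simp) htc) (e5gen_ne hne hsc htc)
      (e5gen_ne hne (by rw [neg_mul, mul_neg, hsc]) htc)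

end e5genabs

open Cfsg Cfsg.Geo
open Cfsg.Agent.Lib.Helper80.AS
open Cfsg.Agent.Lib.Helper77.Asch (NormBy MinOver)
open scoped MatrixGroups Matrix Kronecker

variable {ι : Type} [Fintype ι] [DecidableEq ι] {F : Type*} [Field F]

theorem e5gen_ne_neg (h2 : (2 : F) ≠ 0) (hcard : Fintype.card ι = 4) (x : GL ι F) : x ≠ -x := by
  intro h
  have h1 : (1 : GL ι F) = -1 := by
    have := congrArg (· * x⁻¹) h
    simpa using this
  obtain ⟨i⟩ : Nonempty ι := Fintype.card_pos_iff.1 (by omega)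
  have h3 := congrArg (fun g : GL ι F => (g : Matrix ι ι F) i i) h1
  simp only [Units.val_one, Units.val_neg, Matrix.neg_apply, Matrix.one_apply_eq] at h3
  exact h2 (by linear_combination h3)

theorem ex5_gen [Fintype F] (h2 : (2 : F) ≠ 0) (hcard : Fintype.card ι = 4) (f : (ι → F) → (ι → F) → F)
    (hf : IsSymplecticForm f) (R : Subgroup (GL ι F)) (hR : IsEx5 f R) :
    ∃ a b c d : GL ι F, a * a = 1 ∧ (b * b = 1 ∨ b * b = -1) ∧ c * c = -1 ∧ d * d = -1 ∧ a * b = -(b * a) ∧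
      c * d = -(d * c) ∧ a * c = c * a ∧ a * d = d * a ∧ b * c = c * b ∧ b * d = d * b ∧
      R ≤ Subgroup.closure {a, b, c, d, -1} :=
  e5gen_main R (e5gen_ne_neg h2 hcard) hR.neg hR.sq hR.comm (ex5_card h2 hcard f hf R hR).1
    (ex5_card h2 hcard f hf R hR).2 (minus_type h2 hcard f hf R hR.fixes)
    (fun a ha ha1 ha2 => ex5_anti h2 hcard f hf R hR a ha ha1 ha2)

end Cfsg.Agent.Lib.Helper99.SP4O
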