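import Cfsg.Agent.Lib.Helper99.SP4O.Defs

set_option autoImplicit false

namespace Cfsg.Agent.Lib.Helper99.SP4O

open Cfsg Cfsg.Geo
open Cfsg.Agent.Lib.Helper80.AS
open Cfsg.Agent.Lib.Helper77.Asch (NormBy MinOver)
open scoped MatrixGroups Matrix Kronecker

variable {ι : Type} [Fintype ι] [DecidableEq ι] {F : Type*} [Field F]

/-- PRIMEF.  card F = p^n; ⊥ = ⊤ would give card F = card ⊥ = p (the prime subfield is the image of ZMod p). -/
theorem bot_ne_top_of_not_prime [Fintype F] (h : ¬ (Fintype.card F).Prime) : (⊥ : Subfield F) ≠ ⊤ := by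
  intro hbt
  apply h
  obtain ⟨p, hp⟩ := CharP.exists F
  haveI : Fact p.Prime := ⟨CharP.char_is_prime F p⟩
  letI : Algebra (ZMod p) F := ZMod.algebra F p
  have h1 := Subfield.bot_eq_of_zMod_algebra (K := F) p
  rw [hbt] at h1
  have hsurj : Function.Surjective (algebraMap (ZMod p) F) := by
    intro x
    have : x ∈ (algebraMap (ZMod p) F).fieldRange := h1 ▸ Subfield.mem_top x
    exact this
  have hbij : Function.Bijective (algebraMap (ZMod p) F) := ⟨(algebraMap (ZMod p) F).injective, hsurj⟩
  have := Fintype.card_of_bijective hbij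
  rw [ZMod.card] at this
  rw [← this]
  exact Fact.out

end Cfsg.Agent.Lib.Helper99.SP4O
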