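import Cfsg.Agent.Lib.Helper80.AS.PS0

/-! Ladder ASP4O (helper99), rung PS7 (helper56). -/

set_option autoImplicit false

namespace Cfsg.Agent.Lib.Helper99.SP4O

open Cfsg Cfsg.Geo
open Cfsg.Agent.Lib.Helper80.AS
open Cfsg.Agent.Lib.Helper95
open Cfsg.Agent.Lib.Helper77.Asch (NormBy MinOver)
open scoped MatrixGroups Matrix Kronecker

variable {ι : Type} [Fintype ι] [DecidableEq ι] {F : Type*} [Field F]

theorem ps7_nonscalar (x : GL ι F) (hx : x ∉ scalars ι F) :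
    ∃ v : ι → F, (x : Matrix ι ι F) *ᵥ v ∉ Submodule.span F {v} := by
  by_contra hcon
  push Not at hcon
  apply hx
  have h1 : ∀ v, ¬ LinearIndependent F ![v, Matrix.toLin' (x : Matrix ι ι F) v] := by
    intro v hli
    obtain ⟨c, hc⟩ := Submodule.mem_span_singleton.1 (hcon v)
    have h2 := LinearIndependent.pair_iff.1 hli c (-1) (by
      rw [Matrix.toLin'_apply, ← hc]; simp)
    have h3 : (-1 : F) = 0 := h2.2
    simp at h3
  obtain ⟨a, ha⟩ := LinearMap.exists_eq_smul_id_of_forall_notLinearIndependent h1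
  have hxa : (x : Matrix ι ι F) = a • 1 := by
    apply Matrix.toLin'.injective
    rw [ha, map_smul, Matrix.toLin'_one]
    rfl
  have ha0 : a ≠ 0 := by
    rintro rfl
    have h2 : ((x * x⁻¹ : GL ι F) : Matrix ι ι F) = 1 := by rw [mul_inv_cancel, Units.val_one]
    rw [Units.val_mul, hxa, zero_smul, zero_mul] at h2
    by_cases hne : Nonempty ι
    · obtain ⟨i⟩ := hne
      have := congrFun (congrFun h2 i) i
      simp at this
    · rw [not_nonempty_iff] at hne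
      exact hx ((mem_scalars_iff x).2 ⟨1, by ext i; exact hne.elim i⟩)
  exact (mem_scalars_iff x).2 ⟨Units.mk0 a ha0, hxa⟩

theorem ps7_indep {V : Type*} [AddCommGroup V] [Module F V] {v w : V}
    (hw : w ∉ Submodule.span F {v}) (hv : v ≠ 0) (c₁ c₂ : F) (h : c₁ • w + c₂ • v = 0) :
    c₁ = 0 ∧ c₂ = 0 := by
  have hc1 : c₁ = 0 := by
    by_contra hc
    apply hw
    rw [Submodule.mem_span_singleton]
    refine ⟨-(c₁⁻¹ * c₂), ?_⟩
    have h2 : c₁ • w = -(c₂ • v) := eq_neg_of_add_eq_zero_left h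
    calc (-(c₁⁻¹ * c₂)) • v = c₁⁻¹ • (-(c₂ • v)) := by module
      _ = c₁⁻¹ • (c₁ • w) := by rw [h2]
      _ = w := by rw [smul_smul, inv_mul_cancel₀ hc, one_smul]
  refine ⟨hc1, ?_⟩
  rw [hc1, zero_smul, zero_add] at h
  rcases smul_eq_zero.1 h with h | h
  · exact h
  · exact absurd h hv

/-- PS7. -/
theorem not_le_normalizer (h2 : (2 : F) ≠ 0) (R : Subgroup (GL (Fin 2 ⊕ Fin 2) F))
    (hfix : FixesForm (matrixSet R) (sympForm 2 F)) (hsq : ∀ x ∈ R, x * x = 1 ∨ x * x = -1)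
    (hns : ¬ R ≤ scalars (Fin 2 ⊕ Fin 2) F) : ¬ spGL 2 F ≤ subgroupNormalizer R := by
  intro hle
  obtain ⟨x, hxR, hxs⟩ := SetLike.not_le_iff_exists.1 hns
  obtain ⟨v, hvw⟩ := ps7_nonscalar x hxs
  obtain ⟨w, hw⟩ : ∃ w, w = (x : Matrix (Fin 2 ⊕ Fin 2) (Fin 2 ⊕ Fin 2) F) *ᵥ v := ⟨_, rfl⟩
  rw [← hw] at hvw
  have hv0 : v ≠ 0 := by
    rintro rfl
    apply hvw
    rw [hw, Matrix.mulVec_zero]
    exact Submodule.zero_mem _
  obtain ⟨t, ht, htx⟩ := ps0_stv 2 v (1 : F)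
  simp only [one_mul, ← sympB_apply] at htx
  have hxiso : ∀ a b, sympB 2 F ((x : Matrix (Fin 2 ⊕ Fin 2) (Fin 2 ⊕ Fin 2) F) *ᵥ a)
      ((x : Matrix (Fin 2 ⊕ Fin 2) (Fin 2 ⊕ Fin 2) F) *ᵥ b) = sympB 2 F a b := by
    intro a b
    rw [sympB_apply, sympB_apply]
    exact hfix _ ⟨x, hxR, rfl⟩ a b
  have hvv : sympB 2 F v v = 0 := sympB_isAlt 2 v
  have hww : sympB 2 F w w = 0 := sympB_isAlt 2 w
  obtain ⟨β, hβ⟩ : ∃ β, β = sympB 2 F v w := ⟨_, rfl⟩
  have hwv : sympB 2 F w v = -β := by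
    rw [hβ, (sympB_isAlt (F := F) 2).neg_eq]
  -- the inverse of `t`
  have hti : ∀ z, ((t⁻¹ : GL (Fin 2 ⊕ Fin 2) F) : Matrix (Fin 2 ⊕ Fin 2) (Fin 2 ⊕ Fin 2) F) *ᵥ z
      = z - sympB 2 F z v • v := by
    intro z
    have h1 : (t : Matrix (Fin 2 ⊕ Fin 2) (Fin 2 ⊕ Fin 2) F) *ᵥ (z - sympB 2 F z v • v) = z := by
      rw [htx, map_sub, map_smul, LinearMap.sub_apply, LinearMap.smul_apply, hvv]
      simp
    conv_lhs => rw [← h1]
    rw [Matrix.mulVec_mulVec, ← Units.val_mul, inv_mul_cancel, Units.val_one, Matrix.one_mulVec]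
  have hxx : ∀ u, (x : Matrix (Fin 2 ⊕ Fin 2) (Fin 2 ⊕ Fin 2) F) *ᵥ
      (((x⁻¹ : GL (Fin 2 ⊕ Fin 2) F) : Matrix (Fin 2 ⊕ Fin 2) (Fin 2 ⊕ Fin 2) F) *ᵥ u) = u := by
    intro u
    rw [Matrix.mulVec_mulVec, ← Units.val_mul, mul_inv_cancel, Units.val_one, Matrix.one_mulVec]
  obtain ⟨g, hgdef⟩ : ∃ g, g = t * x * t⁻¹ * x⁻¹ := ⟨_, rfl⟩
  have hgR : g ∈ R := by
    rw [hgdef]
    exact R.mul_mem ((Subgroup.mem_normalizer_iff.1 (hle ht) x).1 hxR) (R.inv_mem hxR)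
  have hg : ∀ u, (g : Matrix (Fin 2 ⊕ Fin 2) (Fin 2 ⊕ Fin 2) F) *ᵥ u
      = u - sympB 2 F u w • w + (sympB 2 F u v + β * sympB 2 F u w) • v := by
    intro u
    rw [hgdef]
    simp only [Units.val_mul, ← Matrix.mulVec_mulVec]
    have e1 : sympB 2 F (((x⁻¹ : GL (Fin 2 ⊕ Fin 2) F) :
        Matrix (Fin 2 ⊕ Fin 2) (Fin 2 ⊕ Fin 2) F) *ᵥ u) v = sympB 2 F u w := by
      rw [← hxiso, hxx, ← hw]
    rw [hti, e1, Matrix.mulVec_sub, Matrix.mulVec_smul, hxx, ← hw, htx, map_sub, map_smul,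
      LinearMap.sub_apply, LinearMap.smul_apply, hwv]
    simp only [smul_eq_mul]
    module
  have hgv : (g : Matrix (Fin 2 ⊕ Fin 2) (Fin 2 ⊕ Fin 2) F) *ᵥ v = v - β • w + (β * β) • v := by
    rw [hg, hvv, ← hβ, zero_add]
  have hgw : (g : Matrix (Fin 2 ⊕ Fin 2) (Fin 2 ⊕ Fin 2) F) *ᵥ w = w - β • v := by
    rw [hg, hww, hwv]
    module
  rcases hsq g hgR with h | h
  · -- `g * g = 1`
    have hgg : ∀ u, (g : Matrix (Fin 2 ⊕ Fin 2) (Fin 2 ⊕ Fin 2) F) *ᵥ
        ((g : Matrix (Fin 2 ⊕ Fin 2) (Fin 2 ⊕ Fin 2) F) *ᵥ u) = u := by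
      intro u
      rw [Matrix.mulVec_mulVec, ← Units.val_mul, h, Units.val_one, Matrix.one_mulVec]
    have hβ0 : β = 0 := by
      have e := hgg w
      rw [hgw, Matrix.mulVec_sub, Matrix.mulVec_smul, hgw, hgv] at e
      have e2 : (β * β) • w + (-β - β - β * β * β) • v = 0 := by
        calc (β * β) • w + (-β - β - β * β * β) • v
            = (w - β • v - β • (v - β • w + (β * β) • v)) - w := by module
          _ = 0 := by rw [e, sub_self]
      have := (ps7_indep hvw hv0 _ _ e2).1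
      exact mul_self_eq_zero.1 this
    have hall : ∀ u, sympB 2 F u v = 0 := by
      intro u
      have e := hgg u
      rw [hg u, Matrix.mulVec_add, Matrix.mulVec_sub, Matrix.mulVec_smul, Matrix.mulVec_smul,
        hgw, hgv, hg u, hβ0] at e
      have e2 : (-(2 * sympB 2 F u w)) • w + (2 * sympB 2 F u v) • v = 0 := by
        calc (-(2 * sympB 2 F u w)) • w + (2 * sympB 2 F u v) • v
            = (u - sympB 2 F u w • w + (sympB 2 F u v + 0 * sympB 2 F u w) • v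
                - sympB 2 F u w • (w - (0 : F) • v)
                + (sympB 2 F u v + 0 * sympB 2 F u w) • (v - (0 : F) • w + ((0 : F) * 0) • v)) - u := by
              module
          _ = 0 := by rw [e, sub_self]
      have := (ps7_indep hvw hv0 _ _ e2).2
      rcases mul_eq_zero.1 this with h3 | h3
      · exact absurd h3 h2
      · exact h3
    apply hv0
    apply (sympB_nondegenerate (F := F) 2).1 v
    intro u
    rw [← (sympB_isAlt (F := F) 2).neg_eq, hall u, neg_zero]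
  · -- `g * g = -1`
    have hker : LinearMap.ker (((sympB 2 F).flip v).prod ((sympB 2 F).flip w)) ≠ ⊥ := by
      apply LinearMap.ker_ne_bot_of_finrank_lt
      simp only [Module.finrank_prod, Module.finrank_self, Module.finrank_fintype_fun_eq_card,
        Fintype.card_sum, Fintype.card_fin]
      norm_num
    obtain ⟨z, hz, hz0⟩ := (Submodule.ne_bot_iff _).1 hker
    rw [LinearMap.mem_ker] at hz
    have hz' : (sympB 2 F z v, sympB 2 F z w) = (0 : F × F) := hz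
    simp only [Prod.mk_eq_zero] at hz'
    have hgz : (g : Matrix (Fin 2 ⊕ Fin 2) (Fin 2 ⊕ Fin 2) F) *ᵥ z = z := by
      rw [hg, hz'.1, hz'.2]
      simp
    have e : ((g * g : GL (Fin 2 ⊕ Fin 2) F) : Matrix (Fin 2 ⊕ Fin 2) (Fin 2 ⊕ Fin 2) F) *ᵥ z = z := by
      rw [Units.val_mul, ← Matrix.mulVec_mulVec, hgz, hgz]
    rw [h] at e
    have e3 : (2 : F) • z = 0 := by
      have e4 : -z = z := by
        rw [Units.val_neg, Units.val_one, Matrix.neg_mulVec, Matrix.one_mulVec] at e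
        exact e
      calc (2 : F) • z = z - (-z) := by module
        _ = 0 := by rw [e4, sub_self]
    rcases smul_eq_zero.1 e3 with h3 | h3
    · exact h2 h3
    · exact hz0 h3

end Cfsg.Agent.Lib.Helper99.SP4O
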