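import Cfsg.Agent.Lib.Helper99.SP4O.Defs
import Cfsg.Agent.Lib.Helper80.AS.SQD
import Cfsg.Agent.Lib.Helper80.AS.TNORM

set_option autoImplicit false

namespace Cfsg.Agent.Lib.Helper99.SP4O

open Cfsg Cfsg.Geo
open Cfsg.Agent.Lib.Helper80.AS
open Cfsg.Agent.Lib.Helper77.Asch (NormBy MinOver)
open scoped MatrixGroups Matrix Kronecker

variable {ι : Type} [Fintype ι] [DecidableEq ι] {F : Type*} [Field F]

/-- SQ22 (variation of AS/SQD.lean `sq_dvd`). -/
theorem tensor_of_commuting [Finite F] [Nonempty ι] (hcard : Fintype.card ι = 4) (N L : Subgroup (GL ι F))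
    (habs : ActsAbsolutelyIrreducibly (matrixSet N))
    (hL : L ≤ N) (hnorm : NormBy N L) (hna : ∃ a ∈ L, ∃ b ∈ L, a * b ≠ b * a)
    (hfac : ∀ g ∈ N, ∃ a ∈ L, ∃ c : GL ι F, g = a * c ∧ ∀ x ∈ L, c * x = x * c) (h : GL ι F)
    (hcomm : ∀ x ∈ L, ∀ y ∈ L, (h * y * h⁻¹) * x = x * (h * y * h⁻¹)) :
    ∃ (e : ι ≃ Fin 2 × Fin 2) (P : GL ι F), N ≤ tensorProductSubgroup 2 2 e P := by
  have hcen : IsScal (cen (env L)) := by
    intro z hz
    apply habs.2 z
    rintro _ ⟨g, hg, rfl⟩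
    obtain ⟨a, ha, c, rfl, hc⟩ := hfac g hg
    have h1 : (a : Matrix ι ι F) * z = z * (a : Matrix ι ι F) :=
      (Subalgebra.mem_centralizer_iff F).1 hz.2 _ (sqd_mem_env L a ha)
    have h2 : (c : Matrix ι ι F) * z = z * (c : Matrix ι ι F) :=
      sqd_comm_env L c (fun x hx => by
        rw [← Units.val_mul, ← Units.val_mul, hc x hx]) z hz.1
    change z * ((a * c : GL ι F) : Matrix ι ι F) = ((a * c : GL ι F) : Matrix ι ι F) * z
    rw [Units.val_mul, ← mul_assoc, ← h1, mul_assoc, ← h2, mul_assoc]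
  obtain ⟨s, k, e, P, hB⟩ := exists_leftFactor N habs.1 (env L) (env_norm N L hnorm) hcen
  have hs0 : s ≠ 0 := by
    obtain ⟨i⟩ := ‹Nonempty ι›
    rintro rfl
    exact (e i).1.elim0
  have hs1 : s ≠ 1 := by
    rintro rfl
    obtain ⟨a, ha, b, hb, hab⟩ := hna
    apply hab
    obtain ⟨ca, hca⟩ := scal_of_leftFactor_one _ e P hB _ (sqd_mem_env L a ha)
    apply Units.ext
    rw [Units.val_mul, Units.val_mul, hca, Matrix.smul_mul, Matrix.mul_smul, one_mul, mul_one]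
  -- extend `hcomm`
  have hstep1 : ∀ y ∈ L, ∀ X ∈ env L,
      ((h : Matrix ι ι F) * (y : Matrix ι ι F) * ((h⁻¹ : GL ι F) : Matrix ι ι F)) * X =
        X * ((h : Matrix ι ι F) * (y : Matrix ι ι F) * ((h⁻¹ : GL ι F) : Matrix ι ι F)) := by
    intro y hy
    apply sqd_comm_env L
    intro x hx
    have := congrArg (fun u : GL ι F => (u : Matrix ι ι F)) (hcomm x hx y hy)
    simpa only [Units.val_mul] using this
  have hstep2 : ∀ X ∈ env L, ∀ Y ∈ env L,
      ((h : Matrix ι ι F) * Y * ((h⁻¹ : GL ι F) : Matrix ι ι F)) * X =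
        X * ((h : Matrix ι ι F) * Y * ((h⁻¹ : GL ι F) : Matrix ι ι F)) := by
    intro X hX Y hY
    have h1 : (((h⁻¹ : GL ι F) : Matrix ι ι F) * X * (h : Matrix ι ι F)) * Y =
        Y * (((h⁻¹ : GL ι F) : Matrix ι ι F) * X * (h : Matrix ι ι F)) := by
      apply sqd_comm_env L _ _ Y hY
      intro y hy
      have h2 := hstep1 y hy X hX
      calc ((h⁻¹ : GL ι F) : Matrix ι ι F) * X * (h : Matrix ι ι F) * (y : Matrix ι ι F)
          = ((h⁻¹ : GL ι F) : Matrix ι ι F) * (X * ((h : Matrix ι ι F) * (y : Matrix ι ι F) *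
              ((h⁻¹ : GL ι F) : Matrix ι ι F))) * (h : Matrix ι ι F) := by
            simp only [mul_assoc, tmul_inv_mul, mul_one]
        _ = ((h⁻¹ : GL ι F) : Matrix ι ι F) * (((h : Matrix ι ι F) * (y : Matrix ι ι F) *
              ((h⁻¹ : GL ι F) : Matrix ι ι F)) * X) * (h : Matrix ι ι F) := by rw [h2]
        _ = (((h⁻¹ : GL ι F) : Matrix ι ι F) * (h : Matrix ι ι F)) * (y : Matrix ι ι F) *
              (((h⁻¹ : GL ι F) : Matrix ι ι F) * X * (h : Matrix ι ι F)) := by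
            simp only [mul_assoc]
        _ = _ := by rw [tmul_inv_mul, one_mul]
    calc (h : Matrix ι ι F) * Y * ((h⁻¹ : GL ι F) : Matrix ι ι F) * X
        = (h : Matrix ι ι F) * (Y * (((h⁻¹ : GL ι F) : Matrix ι ι F) * X * (h : Matrix ι ι F))) *
            ((h⁻¹ : GL ι F) : Matrix ι ι F) := by
          simp only [mul_assoc, tmul_mul_inv, mul_one]
      _ = (h : Matrix ι ι F) * ((((h⁻¹ : GL ι F) : Matrix ι ι F) * X * (h : Matrix ι ι F)) * Y) *
            ((h⁻¹ : GL ι F) : Matrix ι ι F) := by rw [h1]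
      _ = ((h : Matrix ι ι F) * ((h⁻¹ : GL ι F) : Matrix ι ι F)) * X *
            ((h : Matrix ι ι F) * Y * ((h⁻¹ : GL ι F) : Matrix ι ι F)) := by
          simp only [mul_assoc]
      _ = _ := by rw [tmul_mul_inv, one_mul]
  have hdvd : s ∣ k := dvd_of_commuting e P h (fun x y =>
    hstep2 _ ((hB _).2 ⟨y, rfl⟩) _ ((hB _).2 ⟨x, rfl⟩))
  have hc := Fintype.card_congr e
  rw [Fintype.card_prod, Fintype.card_fin, Fintype.card_fin, hcard] at hc
  have hsk : s = 2 ∧ k = 2 := by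
    obtain ⟨m, rfl⟩ := hdvd
    have hs4 : s ≤ 4 := Nat.le_of_dvd (by norm_num) (Dvd.intro _ hc.symm)
    interval_cases s
    · omega
    · omega
    · omega
    · omega
    · omega
  obtain ⟨rfl, rfl⟩ := hsk
  exact ⟨e, P, (env_norm N L hnorm).trans (norm_le_tensor (env L) e P hB)⟩

end Cfsg.Agent.Lib.Helper99.SP4O
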