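import Cfsg.Agent.Lib.Helper99.SP4O.Defs

/-! Ladder ASP4O, rung TWOF (helper62). -/

set_option autoImplicit false

namespace Cfsg.Agent.Lib.Helper99.SP4O

open Cfsg Cfsg.Geo
open Cfsg.Agent.Lib.Helper80.AS
open Cfsg.Agent.Lib.Helper77.Asch (NormBy MinOver)
open scoped MatrixGroups Matrix Kronecker

variable {ι : Type} [Fintype ι] [DecidableEq ι] {F : Type*} [Field F]

theorem twof_sim (f : (ι → F) → (ι → F) → F) (hf : IsBilinearForm f) (s : Matrix ι ι F) (c : F)
    (h : ∀ u v, f (s *ᵥ u) (s *ᵥ v) = c * f u v) : sᵀ * gramMatrix f * s = c • gramMatrix f := by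
  apply uniq_ext
  intro u v
  rw [← uniq_dot, ← uniq_gram f hf, h, Matrix.smul_mulVec, dotProduct_smul, ← uniq_gram f hf, smul_eq_mul]

/-- conjugation of `T = G'⁻¹ G` by a common similarity. -/
theorem twof_conj (G G' s t : Matrix ι ι F) (hG' : IsUnit G'.det) (hst : s * t = 1) (c c' : F) (hc : c ≠ 0)
    (e0 : sᵀ * G * s = c • G) (e0' : sᵀ * G' * s = c' • G') :
    s * (G'⁻¹ * G) * t = (c' * c⁻¹) • (G'⁻¹ * G) := by
  have htsT : tᵀ * sᵀ = 1 := by
    rw [← Matrix.transpose_mul, hst, Matrix.transpose_one]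
  have e1 : G * s = c • (tᵀ * G) := by
    have := congrArg (fun M : Matrix ι ι F => tᵀ * M) e0
    simp only [← Matrix.mul_assoc, htsT, Matrix.one_mul, Matrix.mul_smul] at this
    exact this
  have e2 : G' * s = c' • (tᵀ * G') := by
    have := congrArg (fun M : Matrix ι ι F => tᵀ * M) e0'
    simp only [← Matrix.mul_assoc, htsT, Matrix.one_mul, Matrix.mul_smul] at this
    exact this
  have e3 : s * G'⁻¹ = c' • (G'⁻¹ * tᵀ) := by
    have := congrArg (fun M : Matrix ι ι F => G'⁻¹ * M * G'⁻¹) e2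
    simp only [← Matrix.mul_assoc, Matrix.nonsing_inv_mul G' hG', Matrix.one_mul, Matrix.mul_smul,
      Matrix.smul_mul] at this
    rw [Matrix.mul_assoc (G'⁻¹ * tᵀ), Matrix.mul_nonsing_inv G' hG', Matrix.mul_one] at this
    exact this
  have e4 : tᵀ * G * t = c⁻¹ • G := by
    have := congrArg (fun M : Matrix ι ι F => c⁻¹ • (M * t)) e1
    simp only [Matrix.mul_assoc, hst, Matrix.mul_one, Matrix.smul_mul, smul_smul, inv_mul_cancel₀ hc,
      one_smul] at this
    rw [Matrix.mul_assoc]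
    exact this.symm
  calc s * (G'⁻¹ * G) * t = (s * G'⁻¹) * G * t := by simp only [Matrix.mul_assoc]
    _ = c' • (G'⁻¹ * (tᵀ * G * t)) := by
        rw [e3]
        simp only [Matrix.mul_assoc, Matrix.smul_mul]
    _ = _ := by rw [e4, Matrix.mul_smul, smul_smul]

theorem two_forms [Nonempty ι] (h2 : (2 : F) ≠ 0) (f : (ι → F) → (ι → F) → F) (hf : IsSymplecticForm f)
    (Q : (ι → F) → F) (hQ : IsNondegenerateQuadraticForm Q) (Γ : Subgroup (GL ι F))
    (hΓ : Γ ≤ similarityGroup f) (hΓQ : Γ ≤ quadSimilarityGroup Q) :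
    ∃ A : Subalgebra F (Matrix ι ι F), IsComm A ∧ Γ ≤ subalgebraNormalizer A ∧ IsAdjointClosedFor f A ∧ ¬ IsScal A := by
  set G := gramMatrix f with hG
  set G' := gramMatrix (QuadraticMap.polar Q) with hG'
  have hGd : G.det ≠ 0 := uniq_det f hf.bilinear hf.nondegenerate
  have hGd' : IsUnit G'.det := isUnit_iff_ne_zero.2 (uniq_det _ hQ.polar_bilinear hQ.nondegenerate)
  have hGT : Gᵀ = -G := by
    ext a b
    exact hf.skew _ _
  have hGT' : G'ᵀ = G' := by
    ext a b
    exact QuadraticMap.polar_comm Q _ _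
  set T := G'⁻¹ * G with hT
  have hTA : T ∈ Algebra.adjoin F {T} := Algebra.subset_adjoin (Set.mem_singleton T)
  have hconj : ∀ γ ∈ Γ, ∀ k ∈ Algebra.adjoin F {T},
      (γ : Matrix ι ι F) * k * ((γ⁻¹ : GL ι F) : Matrix ι ι F) ∈ Algebra.adjoin F {T} := by
    intro γ hγ k hk
    have hst : (γ : Matrix ι ι F) * ((γ⁻¹ : GL ι F) : Matrix ι ι F) = 1 := by
      rw [← Units.val_mul, mul_inv_cancel, Units.val_one]
    have hts : ((γ⁻¹ : GL ι F) : Matrix ι ι F) * (γ : Matrix ι ι F) = 1 := by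
      rw [← Units.val_mul, inv_mul_cancel, Units.val_one]
    obtain ⟨c, hc⟩ := hΓ hγ
    obtain ⟨c', hc'⟩ := hΓQ hγ
    have hpol : ∀ u v, QuadraticMap.polar Q ((γ : Matrix ι ι F) *ᵥ u) ((γ : Matrix ι ι F) *ᵥ v) =
        (c' : F) * QuadraticMap.polar Q u v := by
      intro u v
      unfold QuadraticMap.polar
      rw [← Matrix.mulVec_add, hc', hc', hc']
      ring
    have hTc := twof_conj G G' (γ : Matrix ι ι F) ((γ⁻¹ : GL ι F) : Matrix ι ι F) hGd' hst c c' c.ne_zero
      (twof_sim f hf.bilinear _ _ hc) (twof_sim _ hQ.polar_bilinear _ _ hpol)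
    induction hk using Algebra.adjoin_induction with
    | mem x hx =>
      rw [Set.mem_singleton_iff.1 hx, hT, hTc]
      exact Subalgebra.smul_mem _ hTA _
    | algebraMap r =>
      rw [Algebra.algebraMap_eq_smul_one, Matrix.mul_smul, Matrix.smul_mul, mul_one, hst]
      exact Subalgebra.smul_mem _ (Subalgebra.one_mem _) _
    | add x y _ _ hx hy =>
      rw [mul_add, add_mul]
      exact Subalgebra.add_mem _ hx hy
    | mul x y _ _ hx hy =>
      have : (γ : Matrix ι ι F) * (x * y) * ((γ⁻¹ : GL ι F) : Matrix ι ι F) =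
          ((γ : Matrix ι ι F) * x * ((γ⁻¹ : GL ι F) : Matrix ι ι F)) *
            ((γ : Matrix ι ι F) * y * ((γ⁻¹ : GL ι F) : Matrix ι ι F)) := by
        calc (γ : Matrix ι ι F) * (x * y) * ((γ⁻¹ : GL ι F) : Matrix ι ι F)
            = (γ : Matrix ι ι F) * x * 1 * y * ((γ⁻¹ : GL ι F) : Matrix ι ι F) := by
              simp only [mul_one, mul_assoc]
          _ = _ := by
              rw [← hts]
              simp only [mul_assoc]
      rw [this]
      exact Subalgebra.mul_mem _ hx hy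
  refine ⟨Algebra.adjoin F {T}, ?_, ?_, ?_, ?_⟩
  · intro x hx y hy
    rw [Algebra.adjoin_singleton_eq_range_aeval] at hx hy
    obtain ⟨p, rfl⟩ := hx
    obtain ⟨r, rfl⟩ := hy
    change Polynomial.aeval T p * Polynomial.aeval T r = Polynomial.aeval T r * Polynomial.aeval T p
    rw [← map_mul, ← map_mul, mul_comm]
  · intro γ hγ k
    constructor
    · exact hconj γ hγ k
    · intro hk
      have := hconj γ⁻¹ (Γ.inv_mem hγ) _ hk
      rw [inv_inv] at this
      have hts : ((γ⁻¹ : GL ι F) : Matrix ι ι F) * (γ : Matrix ι ι F) = 1 := by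
        rw [← Units.val_mul, inv_mul_cancel, Units.val_one]
      have h3 : ((γ⁻¹ : GL ι F) : Matrix ι ι F) * ((γ : Matrix ι ι F) * k * ((γ⁻¹ : GL ι F) : Matrix ι ι F)) *
          (γ : Matrix ι ι F) = k := by
        calc _ = (((γ⁻¹ : GL ι F) : Matrix ι ι F) * (γ : Matrix ι ι F)) * k *
              (((γ⁻¹ : GL ι F) : Matrix ι ι F) * (γ : Matrix ι ι F)) := by simp only [mul_assoc]
          _ = k := by rw [hts, one_mul, mul_one]
      rwa [h3] at this
  · intro k hk
    induction hk using Algebra.adjoin_induction with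
    | mem x hx =>
      rw [Set.mem_singleton_iff.1 hx]
      refine ⟨-T, Subalgebra.neg_mem _ hTA, fun u v => ?_⟩
      have hTT : Tᵀ * G = -(G * T) := by
        rw [hT, Matrix.transpose_mul, Matrix.transpose_nonsing_inv, hGT, hGT']
        simp only [Matrix.neg_mul, Matrix.mul_assoc]
      have key : (T *ᵥ u) ⬝ᵥ (G *ᵥ v) = u ⬝ᵥ ((Tᵀ * G) *ᵥ v) := by
        calc (T *ᵥ u) ⬝ᵥ (G *ᵥ v) = (u ᵥ* Tᵀ) ⬝ᵥ (G *ᵥ v) := by rw [Matrix.vecMul_transpose]
          _ = u ⬝ᵥ (Tᵀ *ᵥ (G *ᵥ v)) := (Matrix.dotProduct_mulVec u Tᵀ _).symm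
          _ = u ⬝ᵥ ((Tᵀ * G) *ᵥ v) := by rw [Matrix.mulVec_mulVec]
      rw [uniq_gram f hf.bilinear, uniq_gram f hf.bilinear, ← hG, key, hTT, Matrix.mulVec_mulVec, Matrix.mul_neg]
    | algebraMap r =>
      refine ⟨algebraMap F _ r, Subalgebra.algebraMap_mem _ r, fun u v => ?_⟩
      rw [Algebra.algebraMap_eq_smul_one, Matrix.smul_mulVec, Matrix.smul_mulVec, Matrix.one_mulVec,
        Matrix.one_mulVec, hf.bilinear.smul_left, hf.bilinear.smul_right]
    | add x y _ _ hx hy =>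
      obtain ⟨x', hx', hxx⟩ := hx
      obtain ⟨y', hy', hyy⟩ := hy
      refine ⟨x' + y', Subalgebra.add_mem _ hx' hy', fun u v => ?_⟩
      rw [Matrix.add_mulVec, Matrix.add_mulVec, hf.bilinear.add_left, hf.bilinear.add_right, hxx, hyy]
    | mul x y _ _ hx hy =>
      obtain ⟨x', hx', hxx⟩ := hx
      obtain ⟨y', hy', hyy⟩ := hy
      refine ⟨y' * x', Subalgebra.mul_mem _ hy' hx', fun u v => ?_⟩
      rw [← Matrix.mulVec_mulVec, ← Matrix.mulVec_mulVec, hxx, hyy]
  · intro hsc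
    obtain ⟨c, hc⟩ := hsc T hTA
    have h3 : G = c • G' := by
      have := congrArg (fun M : Matrix ι ι F => G' * M) hc
      simp only [hT, ← Matrix.mul_assoc, Matrix.mul_nonsing_inv G' hGd', Matrix.one_mul, Matrix.mul_smul,
        Matrix.mul_one] at this
      exact this
    have h4 : Gᵀ = G := by
      rw [h3, Matrix.transpose_smul, hGT']
    rw [hGT] at h4
    apply hGd
    have h5 : G = 0 := by
      ext a b
      have h6 := congrFun (congrFun h4 a) b
      simp only [Matrix.neg_apply] at h6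
      have h7 : (2 : F) * G a b = 0 := by linear_combination -h6
      rcases mul_eq_zero.1 h7 with h | h
      · exact absurd h h2
      · exact h
    rw [h5, Matrix.det_zero]

end Cfsg.Agent.Lib.Helper99.SP4O
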