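import Cfsg.Agent.Lib.Helper99.SP4O.RED4
import Cfsg.Agent.Lib.Helper99.SP4O.Q22
import Cfsg.Agent.Lib.Helper99.SP4O.TWOF
import Cfsg.Agent.Lib.Helper99.SP4O.SQ22
import Cfsg.Agent.Lib.Helper99.SP4O.COMQ
import Cfsg.Agent.Lib.Helper99.SP4O.C6SQ
import Cfsg.Agent.Lib.Helper99.SP4O.C6R
import Cfsg.Agent.Lib.Helper99.SP4O.C6N
import Cfsg.Agent.Lib.Helper99.SP4O.E5CARD
import Cfsg.Agent.Lib.Helper99.SP4O.E5EXP
import Cfsg.Agent.Lib.Helper99.SP4O.E5CHAR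
import Cfsg.Agent.Lib.Helper99.SP4O.MINUS
import Cfsg.Agent.Lib.Helper99.SP4O.E5GEN
import Cfsg.Agent.Lib.Helper99.SP4O.E5BAS
import Cfsg.Agent.Lib.Helper99.SP4O.PRIMEF
import Cfsg.Agent.Lib.Helper99.SP4O.PS7
import Cfsg.Agent.Lib.Helper66.Q3.Main

set_option autoImplicit false
set_option linter.style.haveILetI false

namespace Cfsg.Agent.Lib.Helper99.SP4O

open Cfsg Cfsg.Geo
open Cfsg.Agent.Lib.Helper80.AS
open Cfsg.Agent.Lib.Helper77.Asch (NormBy MinOver)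
open Cfsg.Agent.Lib.Helper66.Q3 (q3_ts q3_field)
open scoped MatrixGroups Matrix Kronecker

variable {ι : Type} [Fintype ι] [DecidableEq ι] {F : Type*} [Field F]

/-- `InGeo4` without the two conditions `5 ≤ q`. -/
def InGeo4w [Fintype F] (f : (ι → F) → (ι → F) → F) (H : Subgroup (GL ι F)) : Prop :=
  (∃ W : Submodule F (ι → F), W ≠ ⊥ ∧ IsTotallySingularFor f W ∧ H ≤ subspaceStabilizer W) ∨
  (∃ D : Fin 2 → Submodule F (ι → F), IsNondegenerateMDecomposition f 2 D ∧ H ≤ decompositionStabilizer D) ∨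
  (∃ D : Fin 2 → Submodule F (ι → F), IsMDecomposition 2 D ∧
      (∀ i, IsTotallySingularFor f (D i)) ∧ H ≤ decompositionStabilizer D) ∨
  (∃ K : Subalgebra F (Matrix ι ι F), IsFieldSubalgebra 2 K ∧ IsSelfAdjointFor f K ∧
      (∀ k ∈ K, ∀ v : ι → F, f (k *ᵥ v) v = 0) ∧ H ≤ subalgebraNormalizer K) ∨
  (∃ K : Subalgebra F (Matrix ι ι F), IsFieldSubalgebra 2 K ∧
      IsAdjointClosedFor f K ∧ ¬ IsSelfAdjointFor f K ∧ H ≤ subalgebraNormalizer K) ∨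
  (∃ (F₀ : Subfield F) (r : ℕ) (P : GL ι F) (ζ : F), r.Prime ∧ Fintype.card F = Nat.card F₀ ^ r ∧ ζ ≠ 0 ∧
      IsFormRationalStructure f F₀ ζ P ∧ H ≤ subfieldSubgroup F₀ P) ∨
  (∃ (p : ℕ) (R : Subgroup (GL ι F)), IsEx5 f R ∧ p.Prime ∧ Fintype.card F = p ∧ IsSymplecticTypeGroup 2 R ∧
      ActsAbsolutelyIrreducibly (matrixSet R) ∧ R ≤ similarityGroup f ∧ Nat.card R = 32 ∧
      Nat.card (Subgroup.center R) = 2 ∧ IsOfMinusType 2 R ∧ H ≤ subgroupNormalizer R)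

theorem InGeo4.weak [Fintype F] {f : (ι → F) → (ι → F) → F} {H : Subgroup (GL ι F)}
    (hΓ : InGeo4 f H) : InGeo4w f H := by
  rcases hΓ with h | h | ⟨hq, h⟩ | h | ⟨hq, h⟩ | h | h
  · exact Or.inl h
  · exact Or.inr (Or.inl h)
  · exact Or.inr (Or.inr (Or.inl h))
  · exact Or.inr (Or.inr (Or.inr (Or.inl h)))
  · exact Or.inr (Or.inr (Or.inr (Or.inr (Or.inl h))))
  · exact Or.inr (Or.inr (Or.inr (Or.inr (Or.inr (Or.inl h)))))
  · exact Or.inr (Or.inr (Or.inr (Or.inr (Or.inr (Or.inr h)))))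


theorem InGeo4w.mono [Fintype F] {f : (ι → F) → (ι → F) → F} {H Γ : Subgroup (GL ι F)} (h : H ≤ Γ)
    (hΓ : InGeo4w f Γ) : InGeo4w f H := by
  rcases hΓ with ⟨W, h0, h1, h2⟩ | ⟨D, h1, h2⟩ | ⟨D, h1, h2, h3⟩ | ⟨K, h1, h2, h3, h4⟩ |
    ⟨K, h1, h2, h3, h4⟩ | ⟨F₀, r, P, ζ, h1, h2, h3, h4, h5⟩ | ⟨p, R, h0, h1, h2, h3, h4, h5, h6, h7, h8, h9⟩
  · exact Or.inl ⟨W, h0, h1, h.trans h2⟩
  · exact Or.inr (Or.inl ⟨D, h1, h.trans h2⟩)
  · exact Or.inr (Or.inr (Or.inl ⟨D, h1, h2, h.trans h3⟩))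
  · exact Or.inr (Or.inr (Or.inr (Or.inl ⟨K, h1, h2, h3, h.trans h4⟩)))
  · exact Or.inr (Or.inr (Or.inr (Or.inr (Or.inl ⟨K, h1, h2, h3, h.trans h4⟩))))
  · exact Or.inr (Or.inr (Or.inr (Or.inr (Or.inr (Or.inl ⟨F₀, r, P, ζ, h1, h2, h3, h4, h.trans h5⟩)))))
  · exact Or.inr (Or.inr (Or.inr (Or.inr (Or.inr (Or.inr ⟨p, R, h0, h1, h2, h3, h4, h5, h6, h7, h8, h.trans h9⟩)))))

theorem mn4_card_cases [Fintype F] (h2 : (2 : F) ≠ 0) : 5 ≤ Fintype.card F ∨ Fintype.card F = 3 := by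
  have ho : Odd (Fintype.card F) := odd_card_iff.2 h2
  have h1 : 1 < Fintype.card F := Fintype.one_lt_card
  obtain ⟨k, hk⟩ := ho
  omega

theorem mn4_matrixSet_mono {A B : Subgroup (GL ι F)} (h : A ≤ B) : matrixSet A ⊆ matrixSet B := by
  rintro _ ⟨g, hg, rfl⟩
  exact ⟨g, h hg, rfl⟩

/-- the class 6 / class 7 outcome from an `IsEx5` group normalised by `Γ`. -/
theorem geo4_of_ex5 [Fintype F] (h2 : (2 : F) ≠ 0) (hcard : Fintype.card ι = 4) (f : (ι → F) → (ι → F) → F)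
    (hf : IsSymplecticForm f) (Γ R : Subgroup (GL ι F)) (hR : IsEx5 f R) (hn : Γ ≤ subgroupNormalizer R) :
    InGeo4w f Γ := by
  haveI : Nonempty ι := Fintype.card_pos_iff.mp (by omega)
  by_cases hp : (Fintype.card F).Prime
  · have hexp := ex5_exp h2 hcard f R hR
    have hc := ex5_card h2 hcard f hf R hR
    refine Or.inr (Or.inr (Or.inr (Or.inr (Or.inr (Or.inr ⟨Fintype.card F, R, hR, hp, rfl,
      ⟨Nat.prime_two, hexp.1, fun A hA hcA => ex5_char h2 hcard f hf R hR A hA hcA, by rw [hexp.2]; rfl⟩,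
      hR.abs, ?_, hc.1, hc.2, minus_type h2 hcard f hf R hR.fixes, hn⟩)))))
    intro g hg
    refine ⟨1, fun u v => ?_⟩
    rw [Units.val_one, one_mul]
    exact hR.fixes _ ⟨g, hg, rfl⟩ u v
  · obtain ⟨a, b, c, d, ha, hb, hc, hd, hab, hcd, hac, had, hbc, hbd, hle⟩ := ex5_gen h2 hcard f hf R hR
    obtain ⟨B, hB⟩ := realisable_of_gen h2 hcard a b c d ha hb hc hd hab hcd hac had hbc hbd (⊥ : Subfield F)
    obtain ⟨F₁, r, hle1, hr, hcardF⟩ := Helper77.Asch.exists_prime_subfield (⊥ : Subfield F)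
      (bot_ne_top_of_not_prime hp)
    have hB1 : ∀ s ∈ matrixSet R, ∀ i j,
        ((B : Matrix ι ι F) * s * ((B⁻¹ : GL ι F) : Matrix ι ι F)) i j ∈ F₁ :=
      fun s hs i j => hle1 (hB s (mn4_matrixSet_mono hle hs) i j)
    obtain ⟨ζ, hζ, hrat⟩ := form_rational f hf.bilinear hf.nondegenerate R hR.abs hR.fixes F₁ B hB1
    exact Or.inr (Or.inr (Or.inr (Or.inr (Or.inr (Or.inl
      ⟨F₁, r, B⁻¹, ζ, hr, hcardF, hζ, hrat, hn.trans (normalizer_le_subfield R hR.abs F₁ B hB1)⟩)))))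

theorem mn4_arith {t d : ℕ} (ht : 2 ≤ t) (hd : Even d) (h : t * d = 4) : t = 2 ∧ d = 2 := by
  obtain ⟨k, rfl⟩ := hd
  have h1 : t * k = 2 := by nlinarith
  have h2 : t ∣ 2 := Dvd.intro _ h1
  rcases (Nat.dvd_prime Nat.prime_two).1 h2 with h3 | h3
  · omega
  · subst h3
    omega

/-- a commutative, adjoint closed algebra normalised by the irreducible group `Γ` is scalar, or `Γ` is geometric. -/
theorem comm_cases4 [Fintype F] (h2 : (2 : F) ≠ 0) (hcard : Fintype.card ι = 4)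
    (f : (ι → F) → (ι → F) → F) (hf : IsSymplecticForm f) (Γ : Subgroup (GL ι F))
    (hΓ : Γ ≤ similarityGroup f) (hirr : ActsIrreducibly (matrixSet Γ))
    (E : Subalgebra F (Matrix ι ι F)) (hc : IsComm E) (hn : Γ ≤ subalgebraNormalizer E)
    (hadj : IsAdjointClosedFor f E) : InGeo4w f Γ ∨ IsScal E := by
  haveI : Nonempty ι := Fintype.card_pos_iff.mp (by omega)
  -- part A
  have hA : InGeo4w f Γ ∨ ∀ x ∈ E, SelfAdj f x → x = 0 ∨ ∃ y : Matrix ι ι F, x * y = 1 := by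
    obtain ⟨E₀, hE₀, hn₀⟩ := exists_selfAdj f hf.bilinear Γ hΓ E hc hn
    have hc₀ : IsComm E₀ := fun x hx y hy => hc x ((hE₀ x).1 hx).1 y ((hE₀ y).1 hy).1
    rcases field_or_idempotent E₀ hc₀ (no_nilpotent Γ hirr E₀ hc₀ hn₀) with hfield | ⟨e, he, h1, h2', h3⟩
    · right
      intro x hx hsa
      by_cases h : x = 0
      · exact Or.inl h
      · obtain ⟨y, -, hy⟩ := hfield.inv x ((hE₀ x).2 ⟨hx, hsa⟩) h
        exact Or.inr ⟨y, hy⟩
    · left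
      obtain ⟨t, d, D, hD, hst, hp⟩ := decomp_of_idempotent Γ hirr E₀ hc₀ hn₀ e he h1 h2' h3
      have hnd := nondeg_decomp f hf E₀ (fun x hx => ((hE₀ x).1 hx).2) D hD hp
      have ht := hD.two_le
      have heven : Even d := by
        have := even_finrank_of_nondeg f hf (D ⟨0, by omega⟩) (hnd.nondegenerate ⟨0, by omega⟩)
        rwa [hD.finrank_eq] at this
      obtain ⟨rfl, rfl⟩ := mn4_arith ht heven ((decomp_card D hD).trans hcard)
      exact Or.inr (Or.inl ⟨D, hnd, hst⟩)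
  rcases hA with h | h0
  · exact Or.inl h
  -- part B
  have hB : InGeo4w f Γ ∨ IsFieldSubalgebra (Module.finrank F E) E := by
    rcases field_or_idempotent E hc (no_nilpotent Γ hirr E hc hn) with hfield | ⟨e, he, h1, h2', h3⟩
    · exact Or.inr hfield
    · left
      obtain ⟨t, d, D, hD, hst, hp⟩ := decomp_of_idempotent Γ hirr E hc hn e he h1 h2' h3
      obtain ⟨rfl, rfl, hts⟩ := ts_pair 2 (by omega) f hf E hc hadj h0 D hD hp
      exact Or.inr (Or.inr (Or.inl ⟨D, hD, hts, hst⟩))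
  rcases hB with h | hE
  · exact Or.inl h
  -- part C
  obtain ⟨e, he⟩ : ∃ e, e = Module.finrank F E := ⟨_, rfl⟩
  rw [← he] at hE
  have hdvd : e ∣ 4 := hcard ▸ deg_dvd e E hE
  have hepos : 0 < e := Nat.pos_of_dvd_of_pos hdvd (by omega)
  by_cases h1 : e = 1
  · right
    subst h1
    have hbot : E = ⊥ := Subalgebra.finrank_eq_one_iff.1 hE.finrank_eq
    intro x hx
    rw [hbot] at hx
    obtain ⟨c, rfl⟩ := Algebra.mem_bot.1 hx
    exact ⟨c, Algebra.algebraMap_eq_smul_one c⟩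
  · left
    have h2e : 2 ∣ e := by
      have hle : e ≤ 4 := Nat.le_of_dvd (by omega) hdvd
      interval_cases e
      · omega
      · exact dvd_rfl
      · omega
      · exact ⟨2, rfl⟩
    obtain ⟨K', hK', hmem⟩ := exists_subfield_alg E e 2 hE hepos h2e
    have hadj' := subfield_alg_adj f hf E K' _ hmem hadj
    have hn' : Γ ≤ subalgebraNormalizer K' := hn.trans (subfield_alg_norm E K' _ hmem)
    by_cases hsa : IsSelfAdjointFor f K'
    · exact Or.inr (Or.inr (Or.inr (Or.inl ⟨K', hK', hsa, alt_of_selfAdj f hf K' 2 hK' hsa, hn'⟩)))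
    · exact Or.inr (Or.inr (Or.inr (Or.inr (Or.inl ⟨K', hK', hadj', hsa, hn'⟩))))

theorem mn4_iso_le_sim (f : (ι → F) → (ι → F) → F) : multIso f ≤ similarityGroup f := by
  intro g hg
  refine ⟨1, fun u v => ?_⟩
  rw [Units.val_one, one_mul]
  exact hg u v

theorem mn4_arith2 {s k : ℕ} (h : s * k = 4) : s = 1 ∨ k = 1 ∨ (s = 2 ∧ k = 2) := by
  have hs : s ∣ 4 := Dvd.intro _ h
  have hle : s ≤ 4 := Nat.le_of_dvd (by omega) hs
  interval_cases s <;> omega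

/-- Aschbacher's theorem for subgroups of the symplectic group in dimension 4, `q` odd. -/
theorem main4 [Fintype F] (h2 : (2 : F) ≠ 0) (hcard : Fintype.card ι = 4)
    (f : (ι → F) → (ι → F) → F) (hf : IsSymplecticForm f) (H : Subgroup (GL ι F))
    (hH : H ≤ multIso f) : InGeo4w f H ∨ InSymplecticResidualClass H := by
  classical
  have hne : Nonempty ι := Fintype.card_pos_iff.mp (by omega)
  obtain ⟨Z, hZ⟩ : ∃ Z, Z = scalars ι F := ⟨_, rfl⟩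
  have hZc : ∀ z ∈ Z, ∀ g : GL ι F, g * z = z * g := by
    intro z hz g
    exact mn_scalars_central z (hZ ▸ hz) g
  obtain ⟨Γ, hΓd⟩ : ∃ Γ, Γ = H ⊔ Z := ⟨_, rfl⟩
  have hHle : H ≤ Γ := hΓd ▸ le_sup_left
  have hZle : Z ≤ Γ := hΓd ▸ le_sup_right
  have hΓ : Γ ≤ similarityGroup f := by
    rw [hΓd, hZ]
    exact sup_le (hH.trans (mn4_iso_le_sim f)) (scalars_le_sim f hf.bilinear)
  have hΓiso : Γ ≤ multIso f ⊔ scalars ι F := by
    rw [hΓd, hZ]
    exact sup_le_sup_right hH _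
  suffices InGeo4w f Γ ∨ InSymplecticResidualClass H by
    rcases this with h | h
    · exact Or.inl (h.mono hHle)
    · exact Or.inr h
  by_cases hirr : ActsIrreducibly (matrixSet Γ)
  swap
  · exact Or.inl (red4 hcard f hf Γ hΓ hirr).weak
  have hZlt : Z < Γ := by
    refine lt_of_le_of_ne hZle (fun h => ?_)
    apply not_irr_scalars (ι := ι) (F := F) (by omega)
    rw [← hZ, h]
    exact hirr
  obtain ⟨N, hmin⟩ := Helper77.Asch.exists_minOver Γ Z hZlt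
  have hNsim : N ≤ similarityGroup f := hmin.le.trans hΓ
  have hEn : Γ ≤ subalgebraNormalizer (cen (env N)) := cen_norm Γ _ (env_norm Γ N hmin.norm)
  have hEadj : IsAdjointClosedFor f (cen (env N)) := cen_adj f hf _ (env_adj f hf.bilinear N hNsim)
  have hEc : IsComm (cen (env N)) := cen_comm (env N)
  rcases comm_cases4 h2 hcard f hf Γ hΓ hirr _ hEc hEn hEadj with h | hscal
  · exact Or.inl h
  -- the tensor case
  have hT : InGeo4w f Γ ∨ N ≤ scalars ι F ∨ ActsAbsolutelyIrreducibly (matrixSet N) := by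
    have hn := env_norm Γ N hmin.norm
    obtain ⟨s, k, e, P, hB⟩ := exists_leftFactor Γ hirr (env N) hn hscal
    have hsk : s * k = 4 := by
      rw [← hcard, Fintype.card_congr e, Fintype.card_prod, Fintype.card_fin, Fintype.card_fin]
    have hΓt : Γ ≤ tensorProductSubgroup s k e P := hn.trans (norm_le_tensor (env N) e P hB)
    rcases mn4_arith2 hsk with rfl | rfl | ⟨rfl, rfl⟩
    · exact Or.inr (Or.inl (le_scalars_of_env N (scal_of_leftFactor_one (env N) e P hB)))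
    · exact Or.inr (Or.inr (absIrr_of_env_top N (top_of_leftFactor_one (env N) e P hB)))
    · left
      obtain ⟨Q, hQ, hQle⟩ := tensor22_quad e P
      obtain ⟨A, hAc, hAn, hAadj, hAs⟩ := two_forms h2 f hf Q hQ Γ hΓ (hΓt.trans hQle)
      rcases comm_cases4 h2 hcard f hf Γ hΓ hirr A hAc hAn hAadj with h | h
      · exact h
      · exact absurd h hAs
  rcases hT with h | h | hNabs
  · exact Or.inl h
  · exact absurd (hZ ▸ h) (not_le_of_gt hmin.lt)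
  by_cases hab : ⁅N, N⁆ ≤ Z
  · left
    have hsq := sq_mem_scalars hcard Γ N (hZ ▸ hmin) hNabs (hZ ▸ hab)
    have hR := ex5_of_class_two f hf N (hZ ▸ hmin.lt.le) hNabs (hZ ▸ hab) hsq (hmin.le.trans hΓiso)
    exact geo4_of_ex5 h2 hcard f hf Γ _ hR (mn_le_normalizer (normBy_inf_iso f Γ N hΓ hmin.norm))
  obtain ⟨P, hP⟩ : ∃ P, P = ⁅N, N⁆ := ⟨_, rfl⟩
  obtain ⟨hperf, hPZ⟩ := Helper77.Asch.perfect_core Γ Z N hZc hmin hab
  have hab0 := hab
  rw [← hP] at hperf hPZ hab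
  have hPnorm : NormBy Γ P := hP ▸ mn_normBy_commutator hmin.norm
  have hPabs : ActsAbsolutelyIrreducibly (matrixSet P) :=
    absIrr_of_sup P (by rw [← hZ, hPZ]; exact hNabs)
  have hPfix : FixesForm (matrixSet P) f := hP ▸ commutator_fixes f N hNsim
  have hnormH : Γ ≤ subgroupNormalizer P := mn_le_normalizer hPnorm
  have hsimple : ∀ M : Subgroup (GL ι F), Z ≤ M → M ≤ N → NormBy N M → M = Z ∨ M = N := by
    rcases simple_or_commuting Γ Z N hZc hmin hab0 with h | ⟨L, h, hL, hnorm, hna, hfac, hcomm⟩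
    · exact h
    · exfalso
      obtain ⟨e, P', hle⟩ := tensor_of_commuting hcard N L hNabs hL hnorm hna hfac h hcomm
      obtain ⟨Q, hQ, hQle⟩ := tensor22_quad e P'
      have hfixQ : FixesQuadForm (matrixSet P) Q := hP ▸ commutator_fixes_quad N Q (hle.trans hQle)
      exact no_quad_of_odd h2 f hf P hPabs hPfix Q hQ hfixQ
  have key : (∃ F₀ : Subfield F, F₀ ≠ ⊤ ∧ RealisableOver F₀ (matrixSet P)) → InGeo4w f Γ := by
    rintro ⟨F₀, hF₀, B, hB⟩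
    obtain ⟨F₁, r, hle1, hr, hcardF⟩ := Helper77.Asch.exists_prime_subfield F₀ hF₀
    have hB1 : ∀ s ∈ matrixSet P, ∀ i j,
        ((B : Matrix ι ι F) * s * ((B⁻¹ : GL ι F) : Matrix ι ι F)) i j ∈ F₁ :=
      fun s hs i j => hle1 (hB s hs i j)
    obtain ⟨ζ, hζ, hrat⟩ := form_rational f hf.bilinear hf.nondegenerate P hPabs hPfix F₁ B hB1
    exact Or.inr (Or.inr (Or.inr (Or.inr (Or.inr (Or.inl
      ⟨F₁, r, B⁻¹, ζ, hr, hcardF, hζ, hrat,
        hnormH.trans (normalizer_le_subfield P hPabs F₁ B hB1)⟩)))))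
  by_cases hsub : ∃ F₀ : Subfield F, F₀ ≠ ⊤ ∧ RealisableOver F₀ (matrixSet P)
  · exact Or.inl (key hsub)
  have hq : ¬ ∃ Q : (ι → F) → F, IsNondegenerateQuadraticForm Q ∧ FixesQuadForm (matrixSet P) Q := by
    rintro ⟨Q, hQ, hfixQ⟩
    exact no_quad_of_odd h2 f hf P hPabs hPfix Q hQ hfixQ
  by_cases hu : ∃ (σ : F ≃+* F) (u : (ι → F) → (ι → F) → F),
      IsUnitaryForm σ u ∧ FixesForm (matrixSet P) u
  · obtain ⟨σ, u, hu1, hu2⟩ := hu
    exact absurd (realisable_of_unitary f hf.bilinear hf.nondegenerate P hPabs hPfix σ u hu1 hu2) hsub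
  right
  subst hZ
  refine ⟨P, ⟨?_, ?_, hperf, ?_, ?_, ?_, hPabs, ?_⟩, hq, hu⟩
  · calc P ≤ ⁅Γ, Γ⁆ := hP ▸ Subgroup.commutator_mono hmin.le hmin.le
      _ ≤ H := hΓd ▸ Helper77.Asch.commutator_sup_le H _ hZc
  · intro h hh x hx
    exact hPnorm h (hHle hh) x hx
  · exact Helper77.Asch.simple_quot _ N P hPZ hmin.lt hsimple
  · exact Helper77.Asch.nonabelian_quot _ P (by rw [hperf]; exact hab)
  · intro h _ hx
    exact mn_mem_scalars_of_commute P hPabs h (Helper77.Asch.centralizes_of_perfect _ P hZc hperf h hx)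
  · intro F₀ hF₀ hr
    exact hsub ⟨F₀, hF₀, hr⟩

theorem mn4_spGL_le_iso (m : ℕ) : spGL m F ≤ multIso (sympForm m F) := by
  intro g hg u v
  exact hg u v

/-- the maximal subgroups of `Sp_4(q)`, `q` odd. -/
theorem final4 [Fintype F] (h2 : (2 : F) ≠ 0)
    (H : Subgroup (GL (Fin 2 ⊕ Fin 2) F)) (hH : IsMaximalIn (spGL 2 F) H) :
    (∃ W : Submodule F (Fin 2 ⊕ Fin 2 → F), W ≠ ⊥ ∧ IsTotallySingularFor (sympForm 2 F) W ∧
      H = subspaceStabilizer W ⊓ spGL 2 F) ∨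
    (∃ D : Fin 2 → Submodule F (Fin 2 ⊕ Fin 2 → F), IsNondegenerateMDecomposition (sympForm 2 F) 2 D ∧
      H = decompositionStabilizer D ⊓ spGL 2 F) ∨
    (5 ≤ Fintype.card F ∧ ∃ D : Fin 2 → Submodule F (Fin 2 ⊕ Fin 2 → F), IsMDecomposition 2 D ∧
      (∀ i, IsTotallySingularFor (sympForm 2 F) (D i)) ∧ H = decompositionStabilizer D ⊓ spGL 2 F) ∨
    (∃ K : Subalgebra F (Matrix (Fin 2 ⊕ Fin 2) (Fin 2 ⊕ Fin 2) F), IsFieldSubalgebra 2 K ∧
      IsSelfAdjointFor (sympForm 2 F) K ∧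
      (∀ k ∈ K, ∀ v : (Fin 2 ⊕ Fin 2 → F), (sympForm 2 F) (Matrix.mulVec k v) v = 0) ∧
      H = subalgebraNormalizer K ⊓ spGL 2 F) ∨
    (5 ≤ Fintype.card F ∧ ∃ K : Subalgebra F (Matrix (Fin 2 ⊕ Fin 2) (Fin 2 ⊕ Fin 2) F),
      IsFieldSubalgebra 2 K ∧ IsAdjointClosedFor (sympForm 2 F) K ∧
      ¬ IsSelfAdjointFor (sympForm 2 F) K ∧ H = subalgebraNormalizer K ⊓ spGL 2 F) ∨
    (∃ (F₀ : Subfield F) (r : ℕ) (P : GL (Fin 2 ⊕ Fin 2) F) (ζ : F), r.Prime ∧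
      Fintype.card F = Nat.card F₀ ^ r ∧ ζ ≠ 0 ∧ IsFormRationalStructure (sympForm 2 F) F₀ ζ P ∧
      H = subfieldSubgroup F₀ P ⊓ spGL 2 F) ∨
    (∃ (p : ℕ) (R : Subgroup (GL (Fin 2 ⊕ Fin 2) F)), p.Prime ∧ Fintype.card F = p ∧
      IsSymplecticTypeGroup 2 R ∧ ActsAbsolutelyIrreducibly (matrixSet R) ∧
      R ≤ similarityGroup (sympForm 2 F) ∧ Nat.card R = 32 ∧ Nat.card (Subgroup.center R) = 2 ∧
      IsOfMinusType 2 R ∧ H = subgroupNormalizer R ⊓ spGL 2 F) ∨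
    InSymplecticResidualClass H := by
  have hcard : Fintype.card (Fin 2 ⊕ Fin 2) = 4 := by simp
  rcases main4 h2 hcard (sympForm 2 F) (sympForm_isSymplectic 2) H
    (hH.1.le.trans (mn4_spGL_le_iso 2)) with h | h
  swap
  · exact Or.inr (Or.inr (Or.inr (Or.inr (Or.inr (Or.inr (Or.inr h))))))
  rcases h with ⟨W, h0, h1, h2'⟩ | ⟨D, h1, h2'⟩ | ⟨D, h1, h2', h3⟩ | ⟨K, h1, h2', h3, h4⟩ |
    ⟨K, h1, h2', h3, h4⟩ | ⟨F₀, r, P, ζ, h1, h2', h3, h4, h5⟩ |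
    ⟨p, R, h0, h1, h2', h3, h4, h5, h6, h7, h8, h9⟩
  · exact Or.inl ⟨W, h0, h1, fn_eq_of_max hH h2'
      (not_le_subspace 2 W h0 (fn_ne_top_of_ts 2 (by omega) W h1))⟩
  · exact Or.inr (Or.inl ⟨D, h1, fn_eq_of_max hH h2' (not_le_decomp 2 D h1.decomp)⟩)
  · rcases mn4_card_cases h2 with hq | hq
    · exact Or.inr (Or.inr (Or.inl ⟨hq, D, h1, h2', fn_eq_of_max hH h3 (not_le_decomp 2 D h1)⟩))
    · obtain ⟨D', hD', hst'⟩ := q3_ts hq H hH.1.le D h1 h2' h3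
      exact Or.inr (Or.inl ⟨D', hD', fn_eq_of_max hH hst' (not_le_decomp 2 D' hD'.decomp)⟩)
  · exact Or.inr (Or.inr (Or.inr (Or.inl ⟨K, h1, h2', h3, fn_eq_of_max hH h4
      (not_le_fieldNormalizer 2 le_rfl 2 (by omega) le_rfl K h1)⟩)))
  · rcases mn4_card_cases h2 with hq | hq
    · exact Or.inr (Or.inr (Or.inr (Or.inr (Or.inl ⟨hq, K, h1, h2', h3, fn_eq_of_max hH h4
        (not_le_fieldNormalizer 2 le_rfl 2 (by omega) le_rfl K h1)⟩))))
    · exact (q3_field hq H hH K h1 h2' h3 h4).elim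
  · exact Or.inr (Or.inr (Or.inr (Or.inr (Or.inr (Or.inl ⟨F₀, r, P, ζ, h1, h2', h3, h4,
      fn_eq_of_max hH h5 (not_le_subfield 2 (by omega) F₀ (fn_subfield_ne_top F₀ r h1 h2') P)⟩)))))
  · refine Or.inr (Or.inr (Or.inr (Or.inr (Or.inr (Or.inr (Or.inl ⟨p, R, h1, h2', h3, h4, h5, h6, h7, h8,
      fn_eq_of_max hH h9 (not_le_normalizer h2 R h0.fixes h0.sq ?_)⟩))))))
    intro hle
    apply not_irr_scalars (ι := Fin 2 ⊕ Fin 2) (F := F) (by omega)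
    intro W hW
    exact h4.1 W (fun s hs => hW s (mn4_matrixSet_mono hle hs))

end Cfsg.Agent.Lib.Helper99.SP4O
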