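import Cfsg.Agent.Lib.Helper99.SP4O.Defs
import Cfsg.Agent.Lib.Helper80.AS.T0X
import Cfsg.Agent.Lib.Helper80.AS.EVENW

set_option autoImplicit false

namespace Cfsg.Agent.Lib.Helper99.SP4O

open Cfsg Cfsg.Geo
open Cfsg.Agent.Lib.Helper80.AS
open Cfsg.Agent.Lib.Helper77.Asch (NormBy MinOver)
open scoped MatrixGroups Matrix Kronecker

variable {ι : Type} [Fintype ι] [DecidableEq ι] {F : Type*} [Field F]

/-- RED4. -/
theorem red4 [Fintype F] (hcard : Fintype.card ι = 4) (f : (ι → F) → (ι → F) → F) (hf : IsSymplecticForm f)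
    (Γ : Subgroup (GL ι F)) (hΓ : Γ ≤ similarityGroup f) (h : ¬ ActsIrreducibly (matrixSet Γ)) : InGeo4 f Γ := by
  classical
  obtain ⟨W, hW0, hWtop, hWΓ⟩ := red Γ h
  set Wp := t0perp f hf.bilinear W with hWp
  have hWpΓ : Γ ≤ subspaceStabilizer Wp := t0_stab_perp f hf.bilinear Γ hΓ W hWΓ
  by_cases hR : W ⊓ Wp = ⊥
  · have hnW : IsNondegenerateOn f W := t0_nondeg f hf W hR
    have hpp : t0perp f hf.bilinear Wp = W :=
      LinearMap.BilinForm.orthogonal_orthogonal (t0_nondegB f hf) (t0_isRefl f hf) W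
    have hnWp : IsNondegenerateOn f Wp := by
      apply t0_nondeg f hf Wp
      rw [hpp, inf_comm]; exact hR
    have h1 : Module.finrank F Wp = Module.finrank F (ι → F) - Module.finrank F W :=
      LinearMap.BilinForm.finrank_orthogonal (t0_nondegB f hf) W
    have h2 : Module.finrank F W < Module.finrank F (ι → F) := Submodule.finrank_lt hWtop
    rw [Module.finrank_fintype_fun_eq_card, hcard] at h1 h2
    have h3 : Even (Module.finrank F W) := even_finrank_of_nondeg f hf W hnW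
    have h4 : 0 < Module.finrank F W := Module.finrank_pos_iff_exists_ne_zero.mpr (by
      obtain ⟨x, hx, hx0⟩ := (Submodule.ne_bot_iff W).1 hW0
      exact ⟨⟨x, hx⟩, fun h => hx0 (congrArg Subtype.val h)⟩)
    have heq : Module.finrank F W = 2 := by
      obtain ⟨k, hk⟩ := h3
      omega
    refine Or.inr (Or.inl ⟨![W, Wp], ?_, ?_⟩)
    · exact t0x_pair f hf 2 (by norm_num) W Wp hcard heq (by omega) hR hnW hnWp
        (fun u hu v hv => (t0_mem_perp f hf.bilinear W v).1 hv u hu)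
    · intro g hg
      refine ⟨1, fun i => ?_⟩
      fin_cases i
      · exact t0x_map_eq W g (hWΓ hg)
      · exact t0x_map_eq Wp g (hWpΓ hg)
  · refine Or.inl ⟨W ⊓ Wp, hR, ?_, t0_stab_inf Γ W Wp hWΓ hWpΓ⟩
    intro u hu v hv
    exact (t0_mem_perp f hf.bilinear W v).1 hv.2 u hu.1

end Cfsg.Agent.Lib.Helper99.SP4O
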